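import Cfsg.Agent.Linear.GL2Sylow
import Cfsg.Agent.Dickson.Basic
import Cfsg.Prelude.Def_LocalEven
import Cfsg.Prelude.Def_TwoFusion
import Mathlib

/-!
# Elementary facts on a faithful natural `SL₂(q)`-module

All proofs go through coordinates in which the Sylow `p`-subgroup is upper unitriangular.
-/

set_option autoImplicit false

namespace Cfsg.Agent.LocalEven.NaturalSL2

open Matrix Cfsg.Agent.Dickson Cfsg.Agent.Linear

variable {G : Type*} [Group G] [Finite G] {p : ℕ} [Fact p.Prime] {F : Type*} [Field F] [Fintype F]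

local notation "SL" => Matrix.SpecialLinearGroup (Fin 2) F

theorem charP {n : ℕ} (hF : Fintype.card F = p ^ n) : CharP F p := charP_of_card_eq_prime_pow hF

/-- The action of a matrix on column vectors. -/
abbrev act (h : SL) (w : Fin 2 → F) : Fin 2 → F := (h : Matrix (Fin 2) (Fin 2) F).mulVec w

theorem act_apply (h : SL) (w : Fin 2 → F) (i : Fin 2) :
    act h w i = h.1 i 0 * w 0 + h.1 i 1 * w 1 := by
  simp [act, Matrix.mulVec, dotProduct, Fin.sum_univ_two]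

theorem act_act (h k : SL) (w : Fin 2 → F) : act h (act k w) = act (h * k) w := by
  simp only [act, Matrix.SpecialLinearGroup.coe_mul, Matrix.mulVec_mulVec]

theorem act_one (w : Fin 2 → F) : act (1 : SL) w = w := by simp [act]

theorem vec_eq {w z : Fin 2 → F} (h0 : w 0 = z 0) (h1 : w 1 = z 1) : w = z := by
  funext i; fin_cases i <;> assumption

theorem uel_mem (b : F) : (uel b : SL) ∈ U2 (F := F) := mem_U2.2 ⟨rfl, rfl, rfl⟩

theorem eq_uel {u : SL} (hu : u ∈ U2 (F := F)) : u = uel (u.1 0 1) := by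
  obtain ⟨h0, h1, h2⟩ := mem_U2.1 hu
  exact ext2 h0 rfl h1 h2

theorem act_uel (b : F) (w : Fin 2 → F) : act (uel b) w 0 = w 0 + b * w 1 ∧ act (uel b) w 1 = w 1 := by
  simp [act_apply, uel]

/-- Coordinates in which `T` is the group of upper unitriangular matrices. -/
structure Coord (F : Type*) [Field F] (V L T : Subgroup G) where
  norm : L ≤ Subgroup.normalizer (V : Set G)
  ρ : L →* Matrix.SpecialLinearGroup (Fin 2) F
  ψ : Additive V ≃+ (Fin 2 → F)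
  bij : Function.Bijective ρ
  compat : ∀ (l : L) (v w : V), (w : G) = (l : G) * (v : G) * (l : G)⁻¹ →
    ψ (Additive.ofMul w) = act (ρ l) (ψ (Additive.ofMul v))
  memT : ∀ l : L, (l : G) ∈ T ↔ ρ l ∈ U2 (F := F)
  leT : T ≤ L

theorem exists_coord {n : ℕ} (hF : Fintype.card F = p ^ n) (V L : Subgroup G)
    (hnat : Cfsg.IsNaturalSL2Module F V L) (hf : L ⊓ Subgroup.centralizer (V : Set G) = ⊥)
    (S : Sylow p ↥L) (T : Subgroup G) (hT : T = ((S : Subgroup ↥L).map L.subtype)) :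
    Nonempty (Coord F V L T) := by
  haveI := charP hF
  obtain ⟨hn, ρ, ψ, hsur, hker, hcomp⟩ := hnat
  have hinj : Function.Injective ρ := by
    rw [← MonoidHom.ker_eq_bot_iff, hker, Subgroup.subgroupOf_eq_bot, disjoint_iff, inf_comm]
    exact hf
  obtain ⟨c, hc⟩ := MulAction.exists_smul_eq SL (S.mapSurjective hsur) (sylowU2 p)
  let act' : (Fin 2 → F) ≃+ (Fin 2 → F) :=
    { toFun := act c
      invFun := act c⁻¹
      left_inv := fun w => by rw [act_act, inv_mul_cancel, act_one]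
      right_inv := fun w => by rw [act_act, mul_inv_cancel, act_one]
      map_add' := fun w z => Matrix.mulVec_add _ _ _ }
  let ρ' : L →* SL := (MulAut.conj c).toMonoidHom.comp ρ
  have hρ' : Function.Bijective ρ' := (MulAut.conj c).bijective.comp ⟨hinj, hsur⟩
  refine ⟨⟨hn, ρ', ψ.trans act', hρ', fun l v w hw => ?_, fun l => ?_, hT ▸ Subgroup.map_subtype_le _⟩⟩
  · obtain ⟨w', hw', hψ⟩ := hcomp l v
    have : w' = w := Subtype.ext (hw'.trans hw.symm)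
    subst this
    show act c (ψ _) = act (c * ρ l * c⁻¹) (act c (ψ _))
    rw [act_act, show c * ρ l * c⁻¹ * c = c * ρ l by group, ← act_act]
    exact congrArg (act c) hψ
  · rw [← coe_sylowU2 p, ← hc]
    constructor
    · intro hl
      rw [hT] at hl
      obtain ⟨s, hs, hsl⟩ := hl
      obtain rfl : s = l := Subtype.ext hsl
      exact ⟨ρ s, ⟨s, hs, rfl⟩, rfl⟩
    · rintro ⟨_, ⟨s, hs, rfl⟩, he⟩
      obtain rfl : s = l := hρ'.1 he
      rw [hT]
      exact ⟨s, hs, rfl⟩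

namespace Coord

variable {V L T : Subgroup G} (C : Coord F V L T)
include C

/-- The coordinate vector. -/
noncomputable def vec (v : G) (hv : v ∈ V) : Fin 2 → F := C.ψ (Additive.ofMul ⟨v, hv⟩)

theorem vec_inj {v w : G} {hv : v ∈ V} {hw : w ∈ V} (h : C.vec v hv = C.vec w hw) : v = w :=
  congrArg Subtype.val (Additive.ofMul.injective (C.ψ.injective h))

theorem vec_mul {v w : G} (hv : v ∈ V) (hw : w ∈ V) :
    C.vec (v * w) (mul_mem hv hw) = C.vec v hv + C.vec w hw :=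
  C.ψ.map_add (Additive.ofMul ⟨v, hv⟩) (Additive.ofMul ⟨w, hw⟩)

theorem vec_inv {v : G} (hv : v ∈ V) : C.vec v⁻¹ (inv_mem hv) = -C.vec v hv :=
  C.ψ.map_neg (Additive.ofMul ⟨v, hv⟩)

theorem vec_one : C.vec 1 V.one_mem = 0 := C.ψ.map_zero

theorem exists_vec (w : Fin 2 → F) : ∃ (v : G) (hv : v ∈ V), C.vec v hv = w := by
  refine ⟨(Additive.toMul (C.ψ.symm w) : V), SetLike.coe_mem _, ?_⟩
  exact C.ψ.apply_symm_apply w

theorem conj_mem {x v : G} (hx : x ∈ L) (hv : v ∈ V) : x * v * x⁻¹ ∈ V :=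
  (Subgroup.mem_normalizer_iff.mp (C.norm hx) v).mp hv

theorem vec_conj {x v : G} (hx : x ∈ L) (hv : v ∈ V) :
    C.vec (x * v * x⁻¹) (C.conj_mem hx hv) = act (C.ρ ⟨x, hx⟩) (C.vec v hv) :=
  C.compat ⟨x, hx⟩ ⟨v, hv⟩ ⟨x * v * x⁻¹, C.conj_mem hx hv⟩ rfl

theorem vec_congr {v w : G} (h : v = w) (hv : v ∈ V) : C.vec v hv = C.vec w (h ▸ hv) := by
  subst h; rfl

theorem commute_iff {x v : G} (hx : x ∈ L) (hv : v ∈ V) :
    x * v = v * x ↔ act (C.ρ ⟨x, hx⟩) (C.vec v hv) = C.vec v hv := by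
  rw [← C.vec_conj hx hv]
  constructor
  · intro h
    exact C.vec_congr (by rw [h, mul_inv_cancel_right]) _
  · intro h
    have := C.vec_inj h
    exact mul_inv_eq_iff_eq_mul.mp this

theorem exists_T (b : F) : ∃ (t : G) (ht : t ∈ L), t ∈ T ∧ C.ρ ⟨t, ht⟩ = uel b := by
  obtain ⟨⟨t, ht⟩, he⟩ := C.bij.2 (uel b)
  exact ⟨t, ht, (C.memT ⟨t, ht⟩).mpr (he ▸ uel_mem b), he⟩

theorem commute_of_T {t v : G} (ht : t ∈ T) (hv : v ∈ V) (h : C.vec v hv 1 = 0) : t * v = v * t := by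
  rw [C.commute_iff (C.leT ht) hv, eq_uel ((C.memT ⟨t, C.leT ht⟩).mp ht)]
  exact vec_eq (by simp [act_uel, h]) (act_uel _ _).2

theorem snd_eq_zero_of_commute {t v : G} (ht : t ∈ T) (h1 : t ≠ 1) (hv : v ∈ V) (h : t * v = v * t) :
    C.vec v hv 1 = 0 := by
  rw [C.commute_iff (C.leT ht) hv, eq_uel ((C.memT ⟨t, C.leT ht⟩).mp ht)] at h
  have h0 := congrFun h 0
  rw [(act_uel _ _).1, add_eq_left, mul_eq_zero] at h0
  refine h0.resolve_left fun hb => h1 ?_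
  have he : C.ρ ⟨t, C.leT ht⟩ = 1 := by
    rw [eq_uel ((C.memT ⟨t, C.leT ht⟩).mp ht), hb, uel_zero]
  exact congrArg Subtype.val (C.bij.1 (he.trans (map_one C.ρ).symm))

theorem mem_cent_iff {v : G} :
    v ∈ V ⊓ Subgroup.centralizer (T : Set G) ↔ ∃ hv : v ∈ V, C.vec v hv 1 = 0 := by
  constructor
  · rintro ⟨hv, hc⟩
    obtain ⟨t, ht, htT, he⟩ := C.exists_T 1
    refine ⟨hv, C.snd_eq_zero_of_commute htT ?_ hv (Subgroup.mem_centralizer_iff.mp hc t htT)⟩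
    rintro rfl
    have := congrArg (fun g : SL => g.1 0 1) (he.symm.trans (map_one C.ρ))
    simp [uel] at this
  · rintro ⟨hv, h⟩
    exact ⟨hv, Subgroup.mem_centralizer_iff.mpr fun t ht => C.commute_of_T ht hv h⟩

theorem vec_comm {t v : G} (ht : t ∈ T) (hv : v ∈ V) :
    ∃ h : v * t * v⁻¹ * t⁻¹ ∈ V, C.vec (v * t * v⁻¹ * t⁻¹) h 1 = 0 ∧
      C.vec (v * t * v⁻¹ * t⁻¹) h 0 = -((C.ρ ⟨t, C.leT ht⟩).1 0 1 * C.vec v hv 1) := by
  have e : v * t * v⁻¹ * t⁻¹ = v * (t * v⁻¹ * t⁻¹) := by group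
  have hm : v * t * v⁻¹ * t⁻¹ ∈ V := e ▸ mul_mem hv (C.conj_mem (C.leT ht) (inv_mem hv))
  refine ⟨hm, ?_⟩
  rw [C.vec_congr e hm, C.vec_mul hv (C.conj_mem (C.leT ht) (inv_mem hv)),
    C.vec_conj (C.leT ht) (inv_mem hv), C.vec_inv hv, eq_uel ((C.memT ⟨t, C.leT ht⟩).mp ht)]
  simp only [Pi.add_apply, (act_uel _ _).1, (act_uel _ _).2, Pi.neg_apply]
  constructor
  · ring
  · simp [uel]

theorem card_V {n : ℕ} (hF : Fintype.card F = p ^ n) :
    Nat.card V = p ^ (2 * n) := by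
  rw [show Nat.card V = Nat.card (Fin 2 → F) from Nat.card_congr (Additive.ofMul.trans C.ψ.toEquiv),
    Nat.card_fun, Nat.card_fin, Nat.card_eq_fintype_card, hF, ← pow_mul, mul_comm]

theorem card_cent {n : ℕ} (hF : Fintype.card F = p ^ n) :
    Nat.card ↥(V ⊓ Subgroup.centralizer (T : Set G)) = p ^ n := by
  rw [← hF, ← Nat.card_eq_fintype_card]
  refine Nat.card_congr (Equiv.ofBijective (fun v => C.vec v.1 v.2.1 0) ⟨?_, ?_⟩)
  · intro v w h
    obtain ⟨_, hv⟩ := C.mem_cent_iff.mp v.2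
    obtain ⟨_, hw⟩ := C.mem_cent_iff.mp w.2
    exact Subtype.ext (C.vec_inj (vec_eq h (hv.trans hw.symm)))
  · intro a
    obtain ⟨v, hv, he⟩ := C.exists_vec ![a, 0]
    exact ⟨⟨v, C.mem_cent_iff.mpr ⟨hv, by simp [he]⟩⟩, by simp [he]⟩

theorem commutator_le : ⁅V, T⁆ ≤ V ⊓ Subgroup.centralizer (T : Set G) := by
  refine Subgroup.commutator_le.mpr fun v hv t ht => ?_
  rw [commutatorElement_def]
  obtain ⟨hm, h1, -⟩ := C.vec_comm ht hv
  exact C.mem_cent_iff.mpr ⟨hm, h1⟩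

/-- Every element of `C_V(T)` is a commutator of a given `v ∉ C_V(T)` with some element of `T`. -/
theorem exists_comm {v u : G} (hv : v ∈ V) (hv1 : C.vec v hv 1 ≠ 0)
    (hu : u ∈ V ⊓ Subgroup.centralizer (T : Set G)) : ∃ t ∈ T, u = v * t * v⁻¹ * t⁻¹ := by
  obtain ⟨huV, hu1⟩ := C.mem_cent_iff.mp hu
  obtain ⟨t, ht, htT, he⟩ := C.exists_T (-(C.vec u huV 0) / C.vec v hv 1)
  obtain ⟨hm, h1, h0⟩ := C.vec_comm htT hv
  refine ⟨t, htT, C.vec_inj (vec_eq ?_ (hu1.trans h1.symm)) (hw := hm)⟩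
  rw [h0, he]
  simp [uel]
  field_simp

/-- Every element of `C_V(T)` is a commutator of an element of `V` with a given `s ∈ T \ 1`. -/
theorem exists_comm' {s u : G} (hs : s ∈ T) (h1 : s ≠ 1)
    (hu : u ∈ V ⊓ Subgroup.centralizer (T : Set G)) : ∃ v ∈ V, u = v * s * v⁻¹ * s⁻¹ := by
  obtain ⟨huV, hu1⟩ := C.mem_cent_iff.mp hu
  have hb : (C.ρ ⟨s, C.leT hs⟩).1 0 1 ≠ 0 := by
    intro hb
    have he : C.ρ ⟨s, C.leT hs⟩ = 1 := by
      rw [eq_uel ((C.memT ⟨s, C.leT hs⟩).mp hs), hb, uel_zero]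
    exact h1 (congrArg Subtype.val (C.bij.1 (he.trans (map_one C.ρ).symm)))
  obtain ⟨v, hv, he⟩ := C.exists_vec ![0, -(C.vec u huV 0) / (C.ρ ⟨s, C.leT hs⟩).1 0 1]
  obtain ⟨hm, k1, k0⟩ := C.vec_comm hs hv
  refine ⟨v, hv, C.vec_inj (vec_eq ?_ (hu1.trans k1.symm)) (hw := hm)⟩
  rw [k0, he]
  simp only [Matrix.cons_val_one, Matrix.cons_val_zero]
  field_simp

/-- An element of `L` outside `N(T)` is not upper triangular. -/
theorem lower_ne_zero {g : G} (hg : g ∈ L) (hgN : g ∉ Subgroup.normalizer (T : Set G)) :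
    (C.ρ ⟨g, hg⟩).1 1 0 ≠ 0 := by
  intro h10
  refine hgN (Subgroup.mem_normalizer_fintype fun t ht => ?_)
  have htL : t ∈ L := C.leT ht
  have hd := Cfsg.Agent.Dickson.det_eq (C.ρ ⟨g, hg⟩)
  rw [h10] at hd
  refine (C.memT (⟨g, hg⟩ * ⟨t, htL⟩ * ⟨g, hg⟩⁻¹)).mpr ?_
  rw [map_mul, map_mul, map_inv, eq_uel ((C.memT ⟨t, htL⟩).mp ht)]
  refine mem_U2.2 ⟨?_, ?_, ?_⟩ <;> simp [mul_apply2, h10] <;> first
    | ring1
    | linear_combination hd

/-- The diagonal matrices lie in `N_L(T)`. -/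
theorem exists_torus (t : Fˣ) : ∃ g ∈ L ⊓ Subgroup.normalizer (T : Set G), ∀ v (hv : v ∈ V)
    (hm : g * v * g⁻¹ ∈ V), C.vec (g * v * g⁻¹) hm 0 = t * C.vec v hv 0 ∧
      C.vec (g * v * g⁻¹) hm 1 = (t⁻¹ : Fˣ) * C.vec v hv 1 := by
  let d : SL := ⟨!![(t : F), 0; 0, ((t⁻¹ : Fˣ) : F)], by simp [Matrix.det_fin_two]⟩
  obtain ⟨⟨g, hg⟩, he⟩ := C.bij.2 d
  refine ⟨g, ⟨hg, ?_⟩, fun v hv hm => ?_⟩
  · by_contra hN
    exact C.lower_ne_zero hg hN (by rw [he]; rfl)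
  · rw [C.vec_conj hg hv, he]
    simp [act_apply, d]

/-- An element with a non-zero fixed vector has trace `2`. -/
theorem tr_eq_two {h : SL} {w : Fin 2 → F} (hw : w ≠ 0) (hfix : act h w = w) : tr h = 2 := by
  have h0 := congrFun hfix 0
  have h1 := congrFun hfix 1
  rw [act_apply] at h0 h1
  have hd := Cfsg.Agent.Dickson.det_eq h
  have k0 : (2 - tr h) * w 0 = 0 := by
    simp only [tr] at *
    linear_combination (h.1 1 1 - 1) * h0 - h.1 0 1 * h1 - w 0 * hd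
  have k1 : (2 - tr h) * w 1 = 0 := by
    simp only [tr] at *
    linear_combination (h.1 0 0 - 1) * h1 - h.1 1 0 * h0 - w 1 * hd
  by_contra hne
  exact hw (vec_eq ((mul_eq_zero.mp k0).resolve_left (sub_ne_zero.mpr (Ne.symm hne)))
    ((mul_eq_zero.mp k1).resolve_left (sub_ne_zero.mpr (Ne.symm hne))))

end Coord

end Cfsg.Agent.LocalEven.NaturalSL2
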