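import Cfsg.Agent.FGS3.PGroupFrattini
import Mathlib

/-!
# The extraspecial group of plus type as a group of monomial matrices over `ZMod 3`
-/

set_option autoImplicit false

namespace Cfsg.Agent.LocalEven.PlusExtraspecial

open scoped BigOperators

variable (n : ℕ)

/-- `F₂ⁿ`. -/
abbrev A := Fin n → ZMod 2
/-- The hyperbolic space. -/
abbrev P := A n × A n
/-- The monomial module. -/
abbrev V := A n → ZMod 3

variable {n}

/-- The standard pairing. -/
def dot (x y : A n) : ZMod 2 := ∑ i, x i * y i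

theorem dot_add_left (x y z : A n) : dot (x + y) z = dot x z + dot y z := by
  simp [dot, add_mul, Finset.sum_add_distrib]

theorem dot_add_right (x y z : A n) : dot x (y + z) = dot x y + dot x z := by
  simp [dot, mul_add, Finset.sum_add_distrib]

theorem dot_comm (x y : A n) : dot x y = dot y x := by
  simp [dot, mul_comm]

theorem dot_zero_left (y : A n) : dot 0 y = 0 := by simp [dot]
theorem dot_zero_right (y : A n) : dot y 0 = 0 := by simp [dot]

theorem dot_single (i : Fin n) (y : A n) : dot (Pi.single i 1) y = y i := by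
  simp [dot, Pi.single_apply, ite_mul]

theorem eq_zero_of_dot {y : A n} (h : ∀ x, dot x y = 0) : y = 0 := by
  funext i
  rw [← dot_single i y, h]
  rfl

/-- The non-trivial character of `ZMod 2`. -/
def s (c : ZMod 2) : ZMod 3 := if c = 0 then 1 else -1

theorem s_zero : s 0 = 1 := rfl
theorem s_add : ∀ c d : ZMod 2, s (c + d) = s c * s d := by decide
theorem s_sq : ∀ c : ZMod 2, s c * s c = 1 := by decide
theorem s_inj : ∀ c d : ZMod 2, s c = s d → c = d := by decide
theorem s_surj : ∀ r : ZMod 3, r ≠ 0 → ∃ c, s c = r := by decide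
theorem s_ne : ∀ c : ZMod 2, s c ≠ 0 := by decide

theorem add_self2 : ∀ c : ZMod 2, c + c = 0 := by decide

theorem add_self2' (x : A n) : x + x = 0 := funext fun i => add_self2 (x i)

theorem add_self2P (u : P n) : u + u = 0 := Prod.ext (add_self2' u.1) (add_self2' u.2)

/-- The monomial operator `T u c`. -/
def T (u : P n) (c : ZMod 2) : V n ≃ₗ[ZMod 3] V n where
  toFun f x := s (c + dot u.2 x) * f (x + u.1)
  invFun f x := s (c + dot u.2 (x + u.1)) * f (x + u.1)
  map_add' f g := by funext x; simp [mul_add]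
  map_smul' r f := by funext x; simp [mul_left_comm]
  left_inv f := by
    funext x
    simp only [add_assoc x u.1 u.1, add_self2', add_zero]
    rw [← mul_assoc, s_sq, one_mul]
  right_inv f := by
    funext x
    simp only [add_assoc x u.1 u.1, add_self2', add_zero]
    rw [← mul_assoc, s_sq, one_mul]

theorem T_apply (u : P n) (c : ZMod 2) (f : V n) (x : A n) :
    T u c f x = s (c + dot u.2 x) * f (x + u.1) := rfl

theorem T_mul (u v : P n) (c d : ZMod 2) :
    T u c * T v d = T (u + v) (c + d + dot v.2 u.1) := by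
  refine LinearEquiv.ext fun f => funext fun x => ?_
  show T u c (T v d f) x = _
  simp only [T_apply, Prod.fst_add, Prod.snd_add, dot_add_left, dot_add_right, s_add, add_assoc x]
  ring

theorem T_zero : T (0 : P n) 0 = 1 := by
  refine LinearEquiv.ext fun f => funext fun x => ?_
  show T (0 : P n) 0 f x = f x
  simp [T_apply, dot, s_zero]

theorem T_inj {u v : P n} {c d : ZMod 2} (h : T u c = T v d) : u = v ∧ c = d := by
  have h1 : ∀ x y, s (c + dot u.2 x) * (Pi.single y (1 : ZMod 3) : V n) (x + u.1) =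
      s (d + dot v.2 x) * (Pi.single y (1 : ZMod 3) : V n) (x + v.1) := fun x y =>
    congrFun (congrArg (fun g : V n ≃ₗ[ZMod 3] V n => g (Pi.single y 1)) h) x
  have e1 : u.1 = v.1 := by
    by_contra hne
    have h2 := h1 0 u.1
    rw [zero_add, zero_add, Pi.single_eq_same, Pi.single_eq_of_ne (Ne.symm hne), mul_one, mul_zero] at h2
    exact s_ne _ h2
  have h3 : ∀ x, c + dot u.2 x = d + dot v.2 x := fun x => by
    have h2 := h1 x (x + u.1)
    rw [← e1, Pi.single_eq_same, mul_one, mul_one] at h2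
    exact s_inj _ _ h2
  have e0 : c = d := by simpa [dot_zero_right] using h3 0
  refine ⟨Prod.ext e1 (funext fun i => ?_), e0⟩
  have h4 := h3 (Pi.single i 1)
  rw [dot_comm u.2, dot_comm v.2, dot_single, dot_single, e0] at h4
  exact add_left_cancel h4

theorem T_scalar (c : ZMod 2) (f : V n) : T (0 : P n) c f = s c • f := by
  funext x
  simp [T_apply, dot]

theorem T_central (c : ZMod 2) (g : V n ≃ₗ[ZMod 3] V n) : g * T 0 c = T 0 c * g := by
  refine LinearEquiv.ext fun f => ?_
  show g (T 0 c f) = T 0 c (g f)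
  rw [T_scalar, T_scalar, map_smul]

theorem T_split (u : P n) (c : ZMod 2) : T u c = T 0 c * T u 0 := by
  rw [T_mul, zero_add, add_zero, show dot u.2 (0 : P n).1 = 0 from dot_zero_right _, add_zero]

theorem T_delta (u : P n) (c : ZMod 2) (a : A n) :
    T u c (Pi.single a (1 : ZMod 3)) = s (c + dot u.2 (a + u.1)) • (Pi.single (a + u.1) (1 : ZMod 3) : V n) := by
  funext x
  rw [T_apply, Pi.smul_apply, smul_eq_mul]
  by_cases h : x = a + u.1
  · subst h
    rw [Pi.single_eq_same, show a + u.1 + u.1 = a by rw [add_assoc, add_self2', add_zero], Pi.single_eq_same]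
  · have h' : x + u.1 ≠ a := fun e => h (by rw [← e, add_assoc, add_self2', add_zero])
    simp [h, h']

/-- `g` induces `σ` on the extraspecial group modulo its centre. -/
def Rel (g : V n ≃ₗ[ZMod 3] V n) (σ : P n ≃ₗ[ZMod 2] P n) : Prop :=
  ∀ u, ∃ c, g * T u 0 = T (σ u) c * g

theorem rel_all {g : V n ≃ₗ[ZMod 3] V n} {σ : P n ≃ₗ[ZMod 2] P n} (h : Rel g σ) (u : P n) (c : ZMod 2) :
    ∃ d, g * T u c = T (σ u) d * g := by
  obtain ⟨d, hd⟩ := h u
  refine ⟨c + d, ?_⟩
  rw [T_split u c, ← mul_assoc, T_central, mul_assoc, hd, ← mul_assoc, T_mul]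
  congr 2
  · rw [zero_add]
  · rw [show dot (σ u).2 (0 : P n).1 = 0 from dot_zero_right _, add_zero]

theorem rel_one : Rel (1 : V n ≃ₗ[ZMod 3] V n) 1 := fun u => ⟨0, by simp⟩

theorem rel_mul {g h : V n ≃ₗ[ZMod 3] V n} {σ τ : P n ≃ₗ[ZMod 2] P n} (hg : Rel g σ) (hh : Rel h τ) :
    Rel (g * h) (σ * τ) := by
  intro u
  obtain ⟨c, hc⟩ := hh u
  obtain ⟨d, hd⟩ := rel_all hg (τ u) c
  exact ⟨d, by rw [mul_assoc, hc, ← mul_assoc, hd, mul_assoc]; rfl⟩

theorem rel_inv {g : V n ≃ₗ[ZMod 3] V n} {σ : P n ≃ₗ[ZMod 2] P n} (hg : Rel g σ) : Rel g⁻¹ σ⁻¹ := by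
  intro u
  obtain ⟨c, hc⟩ := hg (σ⁻¹ u)
  rw [show σ (σ⁻¹ u) = u from σ.apply_symm_apply u] at hc
  refine ⟨c, ?_⟩
  have h2 : g * T (σ⁻¹ u) c = T u 0 * g := by
    rw [T_split (σ⁻¹ u) c, ← mul_assoc, T_central, mul_assoc, hc, ← mul_assoc, T_mul, zero_add,
      show dot u.2 (0 : P n).1 = 0 from dot_zero_right _, add_zero, add_self2]
  calc g⁻¹ * T u 0 = g⁻¹ * (T u 0 * g) * g⁻¹ := by rw [mul_assoc, mul_assoc, mul_inv_cancel, mul_one]
    _ = T (σ⁻¹ u) c * g⁻¹ := by rw [← h2, inv_mul_cancel_left]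

theorem rel_T (u : P n) (c : ZMod 2) : Rel (T u c) 1 := by
  intro v
  refine ⟨dot v.2 u.1 + dot u.2 v.1, ?_⟩
  rw [show (1 : P n ≃ₗ[ZMod 2] P n) v = v from rfl, T_mul, T_mul, add_comm u v]
  congr 1
  linear_combination (-1 : ZMod 2) * add_self2 (dot u.2 v.1)

/-- Only the extraspecial group acts trivially on its Frattini quotient. -/
theorem exists_T_of_rel_one {g : V n ≃ₗ[ZMod 3] V n} (hg : Rel g 1) : ∃ u c, g = T u c := by
  classical
  set w := g (Pi.single 0 1) with hw
  obtain ⟨a₀, ha₀⟩ : ∃ a, w a ≠ 0 := by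
    by_contra! h
    have h1 : (Pi.single (0 : A n) (1 : ZMod 3) : V n) = 0 :=
      g.injective (by rw [map_zero]; exact funext h)
    simpa using congrFun h1 0
  have hsupp : ∀ y, y ≠ a₀ → w y = 0 := by
    intro y hy
    by_contra hne
    refine hy (sub_eq_zero.mp (eq_zero_of_dot fun b => ?_))
    obtain ⟨c, hc⟩ := hg (0, b)
    have h1 : g (T (0, b) 0 (Pi.single 0 1)) = T (0, b) c w := congrArg (fun f : V n ≃ₗ[ZMod 3] V n => f (Pi.single 0 1)) hc
    rw [T_delta] at h1
    simp only [add_zero, dot_zero_right, s_zero, one_smul] at h1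
    have h2 : ∀ x, w x ≠ 0 → c + dot b x = 0 := by
      intro x hx
      have h3 : w x = s (c + dot b x) * w (x + 0) := congrFun h1 x
      rw [add_zero] at h3
      refine s_inj _ _ ?_
      rw [s_zero]
      exact mul_right_cancel₀ hx (by rw [one_mul]; exact h3.symm)
    have h4 := h2 y hne
    have h5 := h2 a₀ ha₀
    rw [← h5] at h4
    have h6 : dot b y = dot b a₀ := add_left_cancel h4
    have h7 : dot b (y - a₀) + dot b a₀ = dot b y := by rw [← dot_add_right, sub_add_cancel]
    rw [h6] at h7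
    exact add_right_cancel (h7.trans (zero_add _).symm)
  obtain ⟨c₀, hc₀⟩ := s_surj _ ha₀
  have hwe : w = s c₀ • (Pi.single a₀ (1 : ZMod 3) : V n) := by
    funext x
    by_cases hx : x = a₀
    · subst hx; simp [hc₀]
    · simp [hsupp x hx, hx]
  choose μ hμ using fun a : A n => hg (a, 0)
  have hadd : ∀ a b, μ (a + b) = μ a + μ b := by
    intro a b
    have h1 : g * T (a, 0) 0 * T (b, 0) 0 = T (a, 0) (μ a) * T (b, 0) (μ b) * g := by
      rw [hμ a]
      show T ((1 : P n ≃ₗ[ZMod 2] P n) (a, 0)) (μ a) * g * T (b, 0) 0 = _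
      rw [mul_assoc, hμ b, ← mul_assoc]
      rfl
    rw [mul_assoc, T_mul, T_mul] at h1
    simp only [Prod.mk_add_mk, add_zero, dot_zero_left, zero_add] at h1
    rw [hμ (a + b)] at h1
    exact (T_inj (mul_right_cancel h1)).2
  let m : A n →+ ZMod 2 := AddMonoidHom.mk' μ hadd
  set b₁ : A n := fun i => μ (Pi.single i 1) with hb₁
  have hμdot : ∀ a, μ a = dot b₁ a := by
    intro a
    have h1 : a = ∑ i, Pi.single i (a i) := (Finset.univ_sum_single a).symm
    show m a = _
    rw [show m a = m (∑ i, Pi.single i (a i)) from congrArg m h1, map_sum]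
    refine Finset.sum_congr rfl fun i _ => ?_
    rcases (by decide : ∀ z : ZMod 2, z = 0 ∨ z = 1) (a i) with h | h
    · rw [h, Pi.single_zero, map_zero, mul_zero]
    · rw [h, mul_one]; rfl
  refine ⟨(a₀, b₁), c₀ + dot b₁ a₀, ?_⟩
  refine LinearEquiv.toLinearMap_injective (LinearMap.pi_ext' fun a => LinearMap.ext_ring ?_)
  show g (Pi.single a 1) = T (a₀, b₁) (c₀ + dot b₁ a₀) (Pi.single a 1)
  have h1 : g (T (a, 0) 0 (Pi.single 0 1)) = T (a, 0) (μ a) w :=
    congrArg (fun f : V n ≃ₗ[ZMod 3] V n => f (Pi.single 0 1)) (hμ a)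
  rw [T_delta] at h1
  simp only [zero_add, dot_zero_left, s_zero, one_smul] at h1
  rw [h1, hwe, map_smul, T_delta, T_delta, smul_smul, ← s_add]
  simp only [dot_zero_left, add_zero, dot_add_right, hμdot]
  rw [add_comm a₀ a]
  congr 2
  linear_combination (-1 : ZMod 2) * add_self2 (dot b₁ a₀)

theorem sum_char (b : A n) : ∑ a : A n, s (dot a b) = if b = 0 then (2 : ZMod 3) ^ n else 0 := by
  classical
  split_ifs with hb
  · subst hb
    simp [dot_zero_right, s_zero]
  · obtain ⟨i, hi⟩ : ∃ i, b i ≠ 0 := by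
      by_contra! h
      exact hb (funext h)
    have hi1 : b i = 1 := (by decide : ∀ z : ZMod 2, z ≠ 0 → z = 1) _ hi
    have key : ∑ a : A n, s (dot a b) = -∑ a : A n, s (dot a b) := by
      conv_lhs => rw [← Equiv.sum_comp (Equiv.addRight (Pi.single i (1 : ZMod 2) : A n))]
      rw [← Finset.sum_neg_distrib]
      refine Finset.sum_congr rfl fun a _ => ?_
      show s (dot (a + Pi.single i 1) b) = _
      rw [dot_add_left, dot_single, hi1, s_add]
      exact mul_neg_one _
    exact (by decide : ∀ z : ZMod 3, z = -z → z = 0) _ key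

/-- A linear totally singular image lifts to an elementary abelian subgroup. -/
theorem exists_lift (L : A n →ₗ[ZMod 2] P n) (hL : ∀ a, dot (L a).1 (L a).2 = 0) :
    ∃ f : A n → ZMod 2, ∀ a b, T (L (a + b)) (f (a + b)) = T (L a) (f a) * T (L b) (f b) := by
  classical
  set κ : A n → A n → ZMod 2 := fun a b => dot (L b).2 (L a).1 with hκ
  have hsymm : ∀ a b, κ a b = κ b a := by
    intro a b
    have h1 := hL (a + b)
    rw [map_add, Prod.fst_add, Prod.snd_add, dot_add_left, dot_add_right, dot_add_right, hL, hL,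
      zero_add, add_zero, dot_comm, dot_comm (L b).1] at h1
    exact (add_eq_zero_iff_eq_neg.mp h1).trans ((by decide : ∀ z : ZMod 2, -z = z) _)
  have halt : ∀ a, κ a a = 0 := fun a => by rw [hκ]; simp only; rw [dot_comm]; exact hL a
  set e : Fin n → A n := fun i => Pi.single i 1 with he
  let κl : A n →ₗ[ZMod 2] A n →ₗ[ZMod 2] ZMod 2 := LinearMap.mk₂ (ZMod 2) κ
    (fun a a' b => by simp [hκ, dot_add_right])
    (fun c a b => by simp [hκ, dot, Finset.mul_sum, mul_left_comm])
    (fun a b b' => by simp [hκ, dot_add_left])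
    (fun c a b => by simp [hκ, dot, Finset.mul_sum, mul_assoc])
  have hexp : ∀ a b, κ a b = ∑ i, ∑ j, a i * b j * κ (e i) (e j) := by
    intro a b
    show κl a b = _
    conv_lhs => rw [show a = ∑ i, a i • e i from pi_eq_sum_univ' a, show b = ∑ i, b i • e i from pi_eq_sum_univ' b]
    simp only [map_sum, map_smul, LinearMap.sum_apply, LinearMap.smul_apply, smul_eq_mul, Finset.mul_sum]
    rw [Finset.sum_comm]
    refine Finset.sum_congr rfl fun i _ => Finset.sum_congr rfl fun j _ => ?_
    show _ * (_ * κ (e i) (e j)) = _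
    ring
  set γ : A n → A n → ZMod 2 := fun a b => ∑ i, ∑ j, if i < j then a i * b j * κ (e i) (e j) else 0 with hγ
  refine ⟨fun a => γ a a, fun a b => ?_⟩
  rw [T_mul, ← map_add]
  congr 1
  show γ (a + b) (a + b) = γ a a + γ b b + κ a b
  have hadd : γ (a + b) (a + b) = γ a a + γ b b + (γ a b + γ b a) := by
    simp only [hγ, ← Finset.sum_add_distrib]
    refine Finset.sum_congr rfl fun i _ => Finset.sum_congr rfl fun j _ => ?_
    split_ifs
    · simp only [Pi.add_apply]; ring
    · simp
  rw [hadd, hexp]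
  congr 1
  rw [show γ b a = ∑ i, ∑ j, if j < i then b j * a i * κ (e j) (e i) else 0 from Finset.sum_comm]
  simp only [hγ, ← Finset.sum_add_distrib]
  refine Finset.sum_congr rfl fun i _ => Finset.sum_congr rfl fun j _ => ?_
  rcases lt_trichotomy i j with h | h | h
  · rw [if_pos h, if_neg (asymm h), add_zero]
  · subst h
    simp [halt]
  · rw [if_pos h, if_neg (asymm h), zero_add, hsymm (e i), mul_comm (b j)]

/-- Every isometry of the hyperbolic space is induced in `GL(2ⁿ, 3)`. -/
theorem exists_rel (σ : P n ≃ₗ[ZMod 2] P n) (hσ : ∀ u, dot (σ u).1 (σ u).2 = dot u.1 u.2) :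
    ∃ g, Rel g σ := by
  classical
  let LX : A n →ₗ[ZMod 2] P n := σ.toLinearMap.comp (LinearMap.inl (ZMod 2) (A n) (A n))
  let LZ : A n →ₗ[ZMod 2] P n := σ.toLinearMap.comp (LinearMap.inr (ZMod 2) (A n) (A n))
  obtain ⟨fX, hX⟩ := exists_lift LX (fun a => by
    show dot (σ (a, 0)).1 (σ (a, 0)).2 = 0
    rw [hσ]; exact dot_zero_right _)
  obtain ⟨fZ, hZ⟩ := exists_lift LZ (fun a => by
    show dot (σ (0, a)).1 (σ (0, a)).2 = 0
    rw [hσ]; exact dot_zero_left _)
  set X : A n → (V n ≃ₗ[ZMod 3] V n) := fun a => T (LX a) (fX a) with hXd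
  set Z : A n → (V n ≃ₗ[ZMod 3] V n) := fun a => T (LZ a) (fZ a) with hZd
  have hXm : ∀ a b, X (a + b) = X a * X b := hX
  have hZm : ∀ a b, Z (a + b) = Z a * Z b := hZ
  have hZ0 : Z 0 = 1 := by
    have h := hZm 0 0
    rw [add_zero] at h
    exact mul_left_cancel (h.symm.trans (mul_one _).symm)
  have hcomm : ∀ a b, Z b * X a = T 0 (dot a b) * (X a * Z b) := by
    intro a b
    simp only [hXd, hZd]
    rw [T_mul, T_mul, T_mul, zero_add, add_comm (LZ b) (LX a),
      show dot (LX a + LZ b).2 (0 : P n).1 = 0 from dot_zero_right _, add_zero]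
    congr 1
    have h1 := hσ ((a, 0) + (0, b))
    rw [map_add, Prod.fst_add, Prod.snd_add, dot_add_left, dot_add_right, dot_add_right, hσ, hσ] at h1
    simp only [Prod.mk_add_mk, add_zero, zero_add, dot_zero_left, dot_zero_right] at h1
    rw [dot_comm (σ (a, 0)).1, dot_comm (σ (0, b)).1] at h1
    show fZ b + fX a + dot (σ (a, 0)).2 (σ (0, b)).1 =
      dot a b + (fX a + fZ b + dot (σ (0, b)).2 (σ (a, 0)).1)
    linear_combination h1 - add_self2 (dot (σ (0, b)).2 (σ (a, 0)).1)
  -- a vector fixed by all lifts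
  obtain ⟨f, hf⟩ : ∃ f : V n, ∑ b : A n, Z b f ≠ 0 := by
    by_contra! hall
    have h1 : ∀ (a : A n) (f : V n), ∑ b : A n, s (dot a b) • Z b f = 0 := by
      intro a f
      have h2 := hall (X a f)
      have h3 : ∀ b, Z b (X a f) = X a (s (dot a b) • Z b f) := by
        intro b
        have h4 : Z b (X a f) = T 0 (dot a b) (X a (Z b f)) :=
          congrArg (fun g : V n ≃ₗ[ZMod 3] V n => g f) (hcomm a b)
        rw [h4, T_scalar, map_smul]
      simp only [h3, ← map_sum] at h2
      exact (X a).map_eq_zero_iff.mp h2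
    have h5 : ∀ f : V n, (2 : ZMod 3) ^ n • f = 0 := by
      intro f
      have h6 : ∑ a : A n, ∑ b : A n, s (dot a b) • Z b f = 0 := Finset.sum_eq_zero fun a _ => h1 a f
      rw [Finset.sum_comm] at h6
      simp only [← Finset.sum_smul, sum_char, ite_smul, zero_smul, Finset.sum_ite_eq', Finset.mem_univ, if_true] at h6
      rwa [hZ0] at h6
    have h7 := congrFun (h5 (Pi.single 0 1)) 0
    simp at h7
    exact absurd h7.1 (by decide)
  set v := ∑ b : A n, Z b f with hv
  have hZv : ∀ b, Z b v = v := by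
    intro b
    rw [hv, map_sum]
    conv_rhs => rw [← Equiv.sum_comp (Equiv.addLeft b)]
    refine Finset.sum_congr rfl fun c _ => ?_
    show (Z b * Z c) f = Z (b + c) f
    rw [hZm]
  -- the intertwiner
  let g₀ : V n →ₗ[ZMod 3] V n := ∑ x : A n, (LinearMap.proj x).smulRight (X x v)
  have hg₀ : ∀ φ, g₀ φ = ∑ x : A n, φ x • X x v := fun φ => by simp [g₀]
  have hZX : ∀ b x, Z b (X x v) = s (dot x b) • X x v := by
    intro b x
    have h4 : Z b (X x v) = T 0 (dot x b) (X x (Z b v)) :=
      congrArg (fun g : V n ≃ₗ[ZMod 3] V n => g v) (hcomm x b)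
    rw [h4, T_scalar, hZv]
  have hinj : Function.Injective g₀ := by
    rw [injective_iff_map_eq_zero]
    intro φ hφ
    funext y
    have h6 : ∑ b : A n, s (dot y b) • Z b (g₀ φ) = 0 := by simp [hφ]
    simp only [hg₀, map_sum, map_smul, hZX, Finset.smul_sum, smul_smul] at h6
    rw [Finset.sum_comm] at h6
    have h7 : ∀ x, ∑ b : A n, (s (dot y b) * (φ x * s (dot x b))) • X x v =
        ((if y + x = 0 then (2 : ZMod 3) ^ n else 0) * φ x) • X x v := by
      intro x
      rw [← sum_char, Finset.sum_mul, Finset.sum_smul]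
      refine Finset.sum_congr rfl fun b _ => ?_
      congr 1
      rw [dot_comm b, dot_add_left, s_add]
      ring
    simp only [h7] at h6
    rw [Finset.sum_eq_single y ?_ (fun h => absurd (Finset.mem_univ y) h), if_pos (add_self2' y)] at h6
    · rcases smul_eq_zero.mp h6 with h | h
      · exact (mul_eq_zero.mp h).resolve_left (pow_ne_zero _ (by decide))
      · exact absurd ((X y).map_eq_zero_iff.mp h) hf
    · intro x _ hx
      rw [if_neg (fun h => hx ?_), zero_mul, zero_smul]
      calc x = y + y + x := by rw [add_self2', zero_add]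
        _ = y + (y + x) := add_assoc _ _ _
        _ = y := by rw [h, add_zero]
  let g := LinearEquiv.ofBijective g₀ ⟨hinj, Finite.injective_iff_surjective.mp hinj⟩
  refine ⟨g, fun u => ?_⟩
  have hgX : ∀ a, g * T (a, 0) 0 = X a * g := by
    intro a
    refine LinearEquiv.ext fun φ => ?_
    show g₀ (T (a, 0) 0 φ) = X a (g₀ φ)
    rw [hg₀, hg₀, map_sum]
    conv_lhs => rw [← Equiv.sum_comp (Equiv.addRight a)]
    refine Finset.sum_congr rfl fun x _ => ?_
    show T (a, 0) 0 φ (x + a) • X (x + a) v = X a (φ x • X x v)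
    rw [map_smul, T_apply, add_comm x a, hXm]
    simp only [dot_zero_left, add_zero, s_zero, one_mul]
    rw [show a + x + a = x by rw [add_comm a x, add_assoc, add_self2', add_zero]]
    rfl
  have hgZ : ∀ b, g * T (0, b) 0 = Z b * g := by
    intro b
    refine LinearEquiv.ext fun φ => ?_
    show g₀ (T (0, b) 0 φ) = Z b (g₀ φ)
    rw [hg₀, hg₀, map_sum]
    refine Finset.sum_congr rfl fun x _ => ?_
    rw [map_smul, hZX, smul_smul, T_apply]
    simp only [zero_add, add_zero]
    rw [dot_comm b, mul_comm]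
  obtain ⟨a, b⟩ := u
  have hu : σ (a, b) = LZ b + LX a := by
    show σ (a, b) = σ (0, b) + σ (a, 0)
    rw [← map_add]
    simp
  have hT : T ((a, b) : P n) 0 = T (0, b) 0 * T (a, 0) 0 := by
    rw [T_mul]
    simp [dot_zero_left]
  refine ⟨fZ b + fX a + dot (LX a).2 (LZ b).1, ?_⟩
  rw [hT, ← mul_assoc, hgZ, mul_assoc, hgX, ← mul_assoc, hu]
  congr 1
  exact T_mul _ _ _ _

/-- Hyperbolic coordinates for a quadratic space with a totally singular subspace of half dimension. -/
theorem exists_coord {U : Type*} [AddCommGroup U] [Module (ZMod 2) U] [Module.Finite (ZMod 2) U]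
    (q : QuadraticForm (ZMod 2) U) (hnd : (QuadraticMap.polarBilin q).Nondegenerate)
    (hn : Module.finrank (ZMod 2) U = 2 * n)
    (W : Submodule (ZMod 2) U) (hW : Module.finrank (ZMod 2) ↥W = n) (hq : ∀ w ∈ W, q w = 0) :
    ∃ e : P n ≃ₗ[ZMod 2] U, ∀ u, q (e u) = dot u.1 u.2 := by
  classical
  let bW := Module.finBasisOfFinrankEq (ZMod 2) W hW
  let B := QuadraticMap.polarBilin q
  have hψ : Function.Surjective (B : U →ₗ[ZMod 2] Module.Dual (ZMod 2) U) := by
    refine (LinearMap.injective_iff_surjective_of_finrank_eq_finrank Subspace.dual_finrank_eq.symm).mp ?_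
    rw [injective_iff_map_eq_zero]
    exact fun u hu => hnd.1 u fun v => by rw [hu]; rfl
  have hy : ∀ j, ∃ y : U, ∀ i, B y (bW i) = if i = j then 1 else 0 := by
    intro j
    obtain ⟨φ, hφ⟩ := LinearMap.exists_extend (bW.constr (ZMod 2) fun i => if i = j then (1 : ZMod 2) else 0)
    obtain ⟨y, rfl⟩ := hψ φ
    exact ⟨y, fun i => (LinearMap.congr_fun hφ (bW i)).trans (bW.constr_basis _ _ _)⟩
  choose y hy using hy
  have hWW : ∀ w ∈ W, ∀ z ∈ W, B w z = 0 := by
    intro w hw z hz
    show QuadraticMap.polar q w z = 0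
    rw [QuadraticMap.polar, hq _ (add_mem hw hz), hq w hw, hq z hz]; simp
  -- correct the dual family
  let z : Fin n → U := fun j => y j + (∑ i, if i < j then B (y i) (y j) • (bW i : U) else 0) + q (y j) • (bW j : U)
  let w' : Fin n → U := fun j => (∑ i, if i < j then B (y i) (y j) • (bW i : U) else 0) + q (y j) • (bW j : U)
  have hz : ∀ j, z j = y j + w' j := fun j => add_assoc _ _ _
  have hw' : ∀ j, w' j ∈ W := fun j => add_mem (Submodule.sum_mem _ fun i _ => by
    split_ifs
    · exact Submodule.smul_mem _ _ (bW i).2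
    · exact zero_mem _) (Submodule.smul_mem _ _ (bW j).2)
  have hyw : ∀ k j, B (y k) (w' j) = (if k < j then B (y k) (y j) else 0) + if k = j then q (y j) else 0 := by
    intro k j
    simp only [w', map_add, map_sum, map_smul, apply_ite, map_zero, hy, smul_eq_mul]
    rw [Finset.sum_eq_single k]
    · simp only [if_true]
      by_cases h : k = j <;> simp [h, Ne.symm]
    · intro i _ hi; simp [hi]
    · simp
  have hsym : ∀ u v, B u v = B v u := fun u v => QuadraticMap.polar_comm q u v
  have hzw : ∀ j i, B (z j) (bW i) = if i = j then 1 else 0 := fun j i => by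
    rw [hz, map_add, LinearMap.add_apply, hy, hWW _ (hw' j) _ (bW i).2, add_zero]
  have hqz : ∀ j, q (z j) = 0 := by
    intro j
    rw [hz, QuadraticMap.map_add (⇑q), hq _ (hw' j), add_zero]
    show q (y j) + B (y j) (w' j) = 0
    rw [hyw]
    simp [add_self2]
  have hzz : ∀ i j, i ≠ j → B (z i) (z j) = 0 := by
    intro i j hij
    rw [hz i, hz j]
    simp only [map_add, LinearMap.add_apply, hWW _ (hw' i) _ (hw' j), add_zero]
    rw [hsym (w' i) (y j), hyw, hyw, if_neg hij, if_neg (Ne.symm hij), add_zero, add_zero]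
    rcases lt_or_gt_of_ne hij with h | h
    · rw [if_pos h, if_neg (asymm h), add_zero, add_self2]
    · rw [if_pos h, if_neg (asymm h), add_zero, hsym (y j), add_self2]
  let L : A n →ₗ[ZMod 2] U := Fintype.linearCombination (ZMod 2) z
  let M : A n →ₗ[ZMod 2] U := Fintype.linearCombination (ZMod 2) fun i => (bW i : U)
  have hLs : ∀ a, L a = ∑ i, a i • z i := fun a => Fintype.linearCombination_apply (ZMod 2) z a
  have hMs : ∀ a, M a = ∑ i, a i • (bW i : U) := fun a => Fintype.linearCombination_apply (ZMod 2) _ a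
  have hM : ∀ b, M b ∈ W := fun b => by
    rw [hMs]; exact Submodule.sum_mem _ fun i _ => Submodule.smul_mem _ _ (bW i).2
  have hqL : ∀ a, q (L a) = 0 := by
    intro a
    rw [hLs]
    suffices h : ∀ S : Finset (Fin n), q (∑ i ∈ S, a i • z i) = 0 from h _
    intro S
    induction S using Finset.induction_on with
    | empty => simp
    | @insert i S hi ih =>
      rw [Finset.sum_insert hi, QuadraticMap.map_add (⇑q), ih, QuadraticMap.map_smul, hqz]
      show _ + B (a i • z i) (∑ j ∈ S, a j • z j) = 0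
      rw [smul_zero, add_zero, zero_add, map_sum]
      refine Finset.sum_eq_zero fun j hj => ?_
      rw [map_smul, map_smul, LinearMap.smul_apply, hzz i j (fun e => hi (e ▸ hj))]
      simp
  have hLM : ∀ a b, B (L a) (M b) = dot a b := by
    intro a b
    simp only [hLs, hMs, map_sum, map_smul, LinearMap.sum_apply, LinearMap.smul_apply, smul_eq_mul, hzw]
    simp [dot, mul_comm]
  let e₀ : P n →ₗ[ZMod 2] U := L.coprod M
  have hinj : Function.Injective e₀ := by
    rw [injective_iff_map_eq_zero]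
    rintro ⟨a, b⟩ h
    have h' : L a + M b = 0 := h
    have ha : a = 0 := eq_zero_of_dot fun c => by
      have h2 := congrArg (fun u => B u (M c)) h'
      simp only [map_add, LinearMap.add_apply, hLM, hWW _ (hM b) _ (hM c), add_zero, map_zero, LinearMap.zero_apply] at h2
      rw [dot_comm]; exact h2
    subst ha
    rw [map_zero, zero_add] at h'
    refine Prod.ext rfl (eq_zero_of_dot fun c => ?_)
    have h2 := congrArg (fun u => B (L c) u) h'
    simp only [hLM, map_zero] at h2
    exact h2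
  refine ⟨LinearEquiv.ofBijective e₀ ⟨hinj, ?_⟩, fun u => ?_⟩
  · refine (LinearMap.injective_iff_surjective_of_finrank_eq_finrank ?_).mp hinj
    rw [hn, Module.finrank_prod, Module.finrank_fin_fun, two_mul]
  · show q (L u.1 + M u.2) = _
    rw [QuadraticMap.map_add (⇑q), hqL, hq _ (hM _), zero_add, zero_add]
    exact hLM _ _

end Cfsg.Agent.LocalEven.PlusExtraspecial
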