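/-
The inner automorphisms of a large plus-type extraspecial two-group have no complement.
-/
import Mathlib
import Cfsg.Prelude.Def_KGroupFacts

set_option autoImplicit false
set_option linter.style.haveILetI false

namespace Cfsg.Agent.LocalEven

variable {Q : Type*} [Group Q] [Finite Q]

/-- A two-valued commutator setting: a central involution containing all commutators. -/
structure SignData (Q : Type*) [Group Q] (z : Q) : Prop where
  ne : z ≠ 1
  sq : z * z = 1
  central : ∀ a : Q, z * a = a * z
  center : ∀ c : Q, (∀ a : Q, c * a = a * c) → c = 1 ∨ c = z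
  dich : ∀ a b : Q, a * b = b * a ∨ a * b = z * (b * a)

variable {z : Q}

omit [Finite Q] in
theorem SignData.anti_symm (h : SignData Q z) {a b : Q} (hab : a * b = z * (b * a)) :
    b * a = z * (a * b) := by rw [hab, ← mul_assoc, h.sq, one_mul]

omit [Finite Q] in
theorem SignData.not_both (h : SignData Q z) {a b : Q} (h1 : a * b = b * a)
    (h2 : a * b = z * (b * a)) : False := h.ne (right_eq_mul.mp (h1.symm.trans h2))

open Classical in
/-- The map attached to an element with square `z`. -/
noncomputable def reflMap (x y : Q) : Q := if x * y = y * x then y else y * x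

omit [Finite Q] in
theorem SignData.reflMap_mul (h : SignData Q z) {x : Q} (hx : x * x = z) (a b : Q) :
    reflMap x (a * b) = reflMap x a * reflMap x b := by
  unfold reflMap
  rcases h.dich x a with ha | ha <;> rcases h.dich x b with hb | hb
  · have : x * (a * b) = a * b * x := by rw [← mul_assoc, ha, mul_assoc, hb, mul_assoc]
    rw [if_pos this, if_pos ha, if_pos hb]
  · have hn : ¬ x * (a * b) = a * b * x := by
      intro he
      refine h.not_both (a := x) (b := b) ?_ hb
      rw [← mul_assoc, ha, mul_assoc, mul_assoc] at he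
      exact mul_left_cancel he
    rw [if_neg hn, if_pos ha, if_neg (fun e => h.not_both e hb), mul_assoc]
  · have hn : ¬ x * (a * b) = a * b * x := by
      intro he
      refine h.not_both (a := x) (b := a) ?_ ha
      rw [mul_assoc a b x, ← hb, ← mul_assoc, ← mul_assoc] at he
      exact mul_right_cancel he
    rw [if_neg hn, if_neg (fun e => h.not_both e ha), if_pos hb, mul_assoc a x b, hb, ← mul_assoc]
  · have hp : x * (a * b) = a * b * x := by
      rw [← mul_assoc, ha, mul_assoc, mul_assoc, hb, ← mul_assoc a z, ← h.central a, mul_assoc,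
        ← mul_assoc z z, h.sq, one_mul, mul_assoc]
    rw [if_pos hp, if_neg (fun e => h.not_both e ha), if_neg (fun e => h.not_both e hb)]
    calc a * b = a * (z * (z * b)) := by rw [← mul_assoc z z, h.sq, one_mul]
      _ = a * (z * (b * z)) := by rw [h.central b]
      _ = a * (z * (b * (x * x))) := by rw [hx]
      _ = a * ((z * (b * x)) * x) := by simp only [mul_assoc]
      _ = a * ((x * b) * x) := by rw [← hb]
      _ = a * x * (b * x) := by simp only [mul_assoc]

omit [Finite Q] in
theorem SignData.reflMap_reflMap (h : SignData Q z) {x : Q} (hx : x * x = z) (y : Q) :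
    reflMap x (reflMap x y) = x * y * x⁻¹ := by
  unfold reflMap
  rcases h.dich x y with hy | hy
  · rw [if_pos hy, if_pos hy, hy, mul_inv_cancel_right]
  · have hn : ¬ x * y = y * x := fun e => h.not_both e hy
    rw [if_neg hn, if_neg]
    · rw [mul_assoc y, hx, hy, mul_assoc z, mul_assoc, mul_inv_cancel, mul_one, h.central]
    · intro e
      rw [← mul_assoc] at e
      exact hn (mul_right_cancel e)

/-- The automorphism attached to an element with square `z`. -/
noncomputable def refl (h : SignData Q z) {x : Q} (hx : x * x = z) : MulAut Q :=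
  MulEquiv.ofBijective (MonoidHom.mk' (reflMap x) (h.reflMap_mul hx))
    (Finite.injective_iff_bijective.mp fun a b hab => by
      have : reflMap x (reflMap x a) = reflMap x (reflMap x b) :=
        congrArg (reflMap x) (hab : reflMap x a = reflMap x b)
      rw [h.reflMap_reflMap hx, h.reflMap_reflMap hx] at this
      exact mul_left_cancel (mul_right_cancel this))

theorem SignData.refl_apply (h : SignData Q z) {x : Q} (hx : x * x = z) (y : Q) :
    refl h hx y = reflMap x y := rfl

theorem SignData.fix_z (h : SignData Q z) (α : MulAut Q) : α z = z := by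
  refine (h.center (α z) fun a => ?_).resolve_left fun e => h.ne ?_
  · obtain ⟨b, rfl⟩ := α.surjective a
    rw [← map_mul, ← map_mul, h.central]
  · exact α.injective (e.trans (map_one α).symm)

/-- A representative in a complement of a reflection. -/
theorem exists_rep (h : SignData Q z) {L : Subgroup (MulAut Q)} (hL : (Cfsg.Inn Q).IsComplement' L)
    {x : Q} (hx : x * x = z) :
    ∃ v : Q, MulAut.conj v * refl h hx ∈ L := by
  obtain ⟨⟨⟨i, v, rfl⟩, l⟩, hil, -⟩ := hL.existsUnique (refl h hx)
  refine ⟨v⁻¹, ?_⟩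
  have : MulAut.conj v * (l : MulAut Q) = refl h hx := hil
  rw [map_inv, ← this, inv_mul_cancel_left]
  exact l.2

theorem eq_one_of_mem_inn {L : Subgroup (MulAut Q)} (hL : (Cfsg.Inn Q).IsComplement' L) {α : MulAut Q}
    (h1 : α ∈ Cfsg.Inn Q) (h2 : α ∈ L) : α = 1 := by
  have := hL.disjoint.le_bot ⟨h1, h2⟩
  exact Subgroup.mem_bot.mp this

/-- The representative of a reflection anticommutes with it. -/
theorem rep_anti (h : SignData Q z) {L : Subgroup (MulAut Q)} (hL : (Cfsg.Inn Q).IsComplement' L)
    {x : Q} (hx : x * x = z) {v : Q} (hv : MulAut.conj v * refl h hx ∈ L) {y : Q}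
    (hy : x * y = z * (y * x)) : v * x = z * (x * v) := by
  set r := refl h hx
  have h1 : (MulAut.conj v * r) * (MulAut.conj v * r) = 1 := by
    refine eq_one_of_mem_inn hL ⟨v * r v * x, ?_⟩ (L.mul_mem hv hv)
    ext w
    show v * r v * x * w * (v * r v * x)⁻¹ = v * r (v * r w * v⁻¹) * v⁻¹
    rw [map_mul, map_mul, map_inv, h.refl_apply hx (r w), h.refl_apply hx w, h.reflMap_reflMap hx]
    group
  have h2 := MulEquiv.congr_fun h1 y
  simp only [MulAut.mul_apply, MulAut.one_apply, MulAut.conj_apply] at h2
  have hry : r y = y * x := by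
    rw [h.refl_apply hx]; exact if_neg fun e => h.not_both e hy
  have hrx : r x = x := by rw [h.refl_apply hx]; exact if_pos rfl
  refine (h.dich v x).resolve_left fun hc => ?_
  rcases h.dich v y with hvy | hvy
  · have e1 : v * r y * v⁻¹ = y * x := by
      rw [hry, ← mul_assoc, hvy, mul_assoc y, hc, ← mul_assoc, mul_inv_cancel_right]
    rw [e1, map_mul, hry, hrx, mul_assoc y, hx, ← mul_assoc, hvy, mul_assoc y, ← h.central v,
      ← mul_assoc, mul_inv_cancel_right] at h2
    exact h.ne (mul_eq_left.mp h2)
  · have e1 : v * r y * v⁻¹ = z * (y * x) := by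
      rw [hry, ← mul_assoc, hvy, mul_assoc z, mul_assoc y, hc, ← mul_assoc y, ← mul_assoc,
        mul_inv_cancel_right]
    rw [e1, map_mul, map_mul, h.fix_z r, hry, hrx, mul_assoc y, hx] at h2
    have e2 : v * (z * (y * z)) * v⁻¹ = z * y := by
      calc v * (z * (y * z)) * v⁻¹ = v * (z * (z * y)) * v⁻¹ := by rw [h.central y]
        _ = v * y * v⁻¹ := by rw [← mul_assoc z, h.sq, one_mul]
        _ = z * y := by rw [hvy, mul_assoc z, mul_assoc, mul_inv_cancel, mul_one]
    rw [e2] at h2
    exact h.ne (mul_eq_right.mp h2)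

/-- Representatives of commuting reflections. -/
theorem rep_comm (h : SignData Q z) {L : Subgroup (MulAut Q)} (hL : (Cfsg.Inn Q).IsComplement' L)
    {x w : Q} (hx : x * x = z) (hw : w * w = z) (hxw : x * w = w * x) {v : Q}
    (hv : MulAut.conj v * refl h hx ∈ L) {y : Q}
    (hyx : x * y = y * x) (hyw : w * y = z * (y * w)) : v * w = w * v := by
  obtain ⟨u, hu⟩ := exists_rep h hL hw
  set r := refl h hx
  set s := refl h hw
  have hrs : r * s = s * r := by
    ext a
    simp only [MulAut.mul_apply]
    have hrw : r w = w := by rw [h.refl_apply hx]; exact if_pos hxw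
    have hsx : s x = x := by rw [h.refl_apply hw]; exact if_pos hxw.symm
    rcases h.dich w a with ha | ha <;> rcases h.dich x a with hb | hb
    · have e1 : s a = a := by rw [h.refl_apply hw]; exact if_pos ha
      have e2 : r a = a := by rw [h.refl_apply hx]; exact if_pos hb
      rw [e1, e2, e1]
    · have e1 : s a = a := by rw [h.refl_apply hw]; exact if_pos ha
      have e2 : r a = a * x := by rw [h.refl_apply hx]; exact if_neg fun e => h.not_both e hb
      rw [e1, e2, map_mul, e1, hsx]
    · have e1 : s a = a * w := by rw [h.refl_apply hw]; exact if_neg fun e => h.not_both e ha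
      have e2 : r a = a := by rw [h.refl_apply hx]; exact if_pos hb
      rw [e1, e2, e1, map_mul, e2, hrw]
    · have e1 : s a = a * w := by rw [h.refl_apply hw]; exact if_neg fun e => h.not_both e ha
      have e2 : r a = a * x := by rw [h.refl_apply hx]; exact if_neg fun e => h.not_both e hb
      rw [e1, e2, map_mul, e2, hrw, map_mul, e1, hsx, mul_assoc, mul_assoc, hxw]
  haveI : (Cfsg.Inn Q).Normal := by
    refine ⟨fun n hn g => ?_⟩
    obtain ⟨q, rfl⟩ := hn
    exact ⟨g q, by ext a; show g q * a * (g q)⁻¹ = g (q * g⁻¹ a * q⁻¹); simp⟩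
  have hq : ∀ q : Q, QuotientGroup.mk' (Cfsg.Inn Q) (MulAut.conj q) = 1 := fun q =>
    (QuotientGroup.eq_one_iff _).mpr ⟨q, rfl⟩
  have hcomm : (MulAut.conj v * r) * (MulAut.conj u * s) = (MulAut.conj u * s) * (MulAut.conj v * r) := by
    have hi : (MulAut.conj v * r) * (MulAut.conj u * s) *
        ((MulAut.conj u * s) * (MulAut.conj v * r))⁻¹ ∈ Cfsg.Inn Q := by
      refine (QuotientGroup.eq_one_iff _).mp ?_
      show QuotientGroup.mk' (Cfsg.Inn Q) _ = 1
      simp only [map_mul, map_inv, hq, one_mul]
      rw [← map_mul, ← map_mul, hrs, mul_inv_cancel]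
    exact mul_inv_eq_one.mp
      (eq_one_of_mem_inn hL hi (L.mul_mem (L.mul_mem hv hu) (L.inv_mem (L.mul_mem hu hv))))
  have hy' := MulEquiv.congr_fun hcomm y
  simp only [MulAut.mul_apply, MulAut.conj_apply] at hy'
  have hry : r y = y := by rw [h.refl_apply hx]; exact if_pos hyx
  have hsy : s y = y * w := by
    rw [h.refl_apply hw]; exact if_neg fun e => h.not_both e hyw
  have hrw : r w = w := by rw [h.refl_apply hx]; exact if_pos hxw
  have hfix : ∀ (α : MulAut Q) (c : Q), c = 1 ∨ c = z → α c = c := by
    rintro α c (rfl | rfl)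
    · exact map_one α
    · exact h.fix_z α
  have sgn : ∀ a b : Q, ∃ c, (c = 1 ∨ c = z) ∧ a * b * a⁻¹ = c * b := by
    intro a b
    rcases h.dich a b with hd | hd
    · exact ⟨1, Or.inl rfl, by rw [hd, mul_inv_cancel_right, one_mul]⟩
    · exact ⟨z, Or.inr rfl, by rw [hd, mul_assoc z, mul_inv_cancel_right]⟩
  obtain ⟨c, hc, hce⟩ := sgn u (y * w)
  obtain ⟨d, hd, hde⟩ := sgn v y
  rw [hsy, hce, map_mul, hfix r c hc, map_mul, hry, hrw, hde, map_mul, hfix s d hd, hsy] at hy'
  have hcc : ∀ e a : Q, (e = 1 ∨ e = z) → e * a = a * e := by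
    rintro e a (rfl | rfl)
    · rw [one_mul, mul_one]
    · exact h.central a
  have hl : v * (c * (y * w)) * v⁻¹ = c * (d * y * (v * w * v⁻¹)) := by
    rw [← mul_assoc v, ← hcc c v hc, ← hde]
    simp only [mul_assoc, inv_mul_cancel_left]
  have hr : u * (d * (y * w)) * u⁻¹ = c * (d * y * w) := by
    rw [← mul_assoc u, ← hcc d u hd, mul_assoc d, mul_assoc d, hce, ← mul_assoc d c, hcc d c hd]
    simp only [mul_assoc]
  rw [hl, hr] at hy'
  exact mul_inv_eq_iff_eq_mul.mp (mul_left_cancel (mul_left_cancel hy'))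

end Cfsg.Agent.LocalEven

namespace Cfsg.Agent.LocalEven

variable {Q : Type*} [Group Q] [Finite Q] {z : Q}

omit [Finite Q] in
theorem SignData.exists_anti (h : SignData Q z) {a : Q} (h1 : a ≠ 1) (hz : a ≠ z) :
    ∃ g, a * g = z * (g * a) := by
  by_contra hn
  push Not at hn
  rcases h.center a (fun g => (h.dich a g).resolve_right (hn g)) with e | e
  · exact h1 e
  · exact hz e

omit [Finite Q] in
/-- A dual element for a new isotropic element, orthogonal to a given dual pair. -/
theorem SignData.adjust (h : SignData Q z) {a e f g : Q} (hae : a * e = e * a) (haf : a * f = f * a)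
    (hef : e * f = z * (f * e)) (hag : a * g = z * (g * a)) :
    ∃ g', a * g' = z * (g' * a) ∧ e * g' = g' * e ∧ f * g' = g' * f ∧
      ∀ b : Q, b * e = e * b → b * f = f * b → (b * g = g * b → b * g' = g' * b) := by
  have mulc : ∀ {p q r : Q}, p * q = q * p → p * r = r * p → p * (q * r) = q * r * p := fun h1 h2 => by
    rw [← mul_assoc, h1, mul_assoc, h2, mul_assoc]
  have mula : ∀ {p q r : Q}, p * q = q * p → p * r = z * (r * p) → p * (q * r) = z * (q * r * p) := by
    intro p q r h1 h2
    rw [← mul_assoc, h1, mul_assoc, h2, ← mul_assoc q z, ← h.central q]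
    simp only [mul_assoc]
  have mulaa : ∀ {p q r : Q}, p * q = z * (q * p) → p * r = z * (r * p) → p * (q * r) = q * r * p := by
    intro p q r h1 h2
    rw [← mul_assoc, h1, mul_assoc, mul_assoc, h2, ← mul_assoc q z, ← h.central q, mul_assoc z q,
      ← mul_assoc z z, h.sq, one_mul, mul_assoc]
  have hfe : f * e = z * (e * f) := h.anti_symm hef
  have step : ∀ g, a * g = z * (g * a) → ∃ g', a * g' = z * (g' * a) ∧ e * g' = g' * e ∧
      (f * g = g * f → f * g' = g' * f) ∧
      ∀ b : Q, b * f = f * b → b * g = g * b → b * g' = g' * b := by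
    intro g hag
    rcases h.dich e g with he | he
    · exact ⟨g, hag, he, id, fun _ _ => id⟩
    · exact ⟨f * g, mula haf hag, mulaa hef he, fun hf => mulc rfl hf, fun b h1 h2 => mulc h1 h2⟩
  obtain ⟨g₁, ha₁, he₁, -, hb₁⟩ := step g hag
  rcases h.dich f g₁ with hf | hf
  · exact ⟨g₁, ha₁, he₁, hf, fun b _ h2 h3 => hb₁ b h2 h3⟩
  · exact ⟨e * g₁, mula hae ha₁, mulc rfl he₁, mulaa hfe hf,
      fun b h1 h2 h3 => mulc h1 (hb₁ b h2 h3)⟩

omit [Finite Q] in
/-- A dual element that is an involution. -/
theorem SignData.exists_dual (h : SignData Q z) (hsq : ∀ g : Q, g * g = 1 ∨ g * g = z) {a g : Q}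
    (ha : a * a = 1) (hag : a * g = z * (g * a)) :
    ∃ g', g' * g' = 1 ∧ a * g' = z * (g' * a) ∧
      ∀ b : Q, b * a = a * b → b * g = g * b → b * g' = g' * b := by
  rcases hsq g with hg | hg
  · exact ⟨g, hg, hag, fun _ _ h2 => h2⟩
  refine ⟨a * g, ?_, ?_, fun b h1 h2 => by rw [← mul_assoc, h1, mul_assoc, h2, mul_assoc]⟩
  · calc a * g * (a * g) = a * (g * a) * g := by simp only [mul_assoc]
      _ = a * (z * (a * g)) * g := by rw [h.anti_symm hag]
      _ = z * (a * a * (g * g)) := by rw [← mul_assoc a z, ← h.central a]; simp only [mul_assoc]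
      _ = 1 := by rw [ha, one_mul, hg, h.sq]
  · rw [mul_assoc a g a, ← mul_assoc z, h.central a, mul_assoc a z, ← hag, ← mul_assoc]

end Cfsg.Agent.LocalEven
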