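import Cfsg.Agent.Linear.GL2Sylow
import Cfsg.Agent.Dickson.Basic
import Cfsg.Prelude.Def_LocalEven
import Mathlib

/-!
# The group `Qd` over a finite field
-/

set_option autoImplicit false

namespace Cfsg.Agent.LocalEven.QdOverFacts

open Matrix

variable {F : Type*} [Field F]

local notation "SL3" => Matrix.SpecialLinearGroup (Fin 3) F
local notation "SL" => Matrix.SpecialLinearGroup (Fin 2) F

theorem mem_iff {M : SL3} : M ∈ Cfsg.qdOver F ↔ M.1 2 0 = 0 ∧ M.1 2 1 = 0 ∧ M.1 2 2 = 1 := by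
  refine ⟨fun h => ?_, fun h => Subgroup.subset_closure h⟩
  induction h using Subgroup.closure_induction with
  | mem x hx => exact hx
  | one => simp
  | mul a b _ _ ha hb =>
    obtain ⟨a0, a1, a2⟩ := ha
    obtain ⟨b0, b1, b2⟩ := hb
    refine ⟨?_, ?_, ?_⟩ <;>
      simp [Matrix.mul_apply, Fin.sum_univ_three, a0, a1, a2, b0, b1, b2]
  | inv a _ ha =>
    obtain ⟨a0, a1, a2⟩ := ha
    have h : ∀ j, (a * a⁻¹ : SL3).1 2 j = (1 : Matrix (Fin 3) (Fin 3) F) 2 j := fun j => by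
      rw [mul_inv_cancel]; rfl
    have key : ∀ j, (a⁻¹ : SL3).1 2 j = (1 : Matrix (Fin 3) (Fin 3) F) 2 j := fun j => by
      rw [← h j, Matrix.SpecialLinearGroup.coe_mul, Matrix.mul_apply, Fin.sum_univ_three, a0, a1, a2]
      simp
    exact ⟨by rw [key]; simp, by rw [key]; simp, by rw [key]; simp⟩

theorem row0 (M : Cfsg.qdOver F) : M.1.1 2 0 = 0 := (mem_iff.mp M.2).1
theorem row1 (M : Cfsg.qdOver F) : M.1.1 2 1 = 0 := (mem_iff.mp M.2).2.1
theorem row2 (M : Cfsg.qdOver F) : M.1.1 2 2 = 1 := (mem_iff.mp M.2).2.2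

theorem mul_entry (M N : Cfsg.qdOver F) (i j : Fin 3) :
    (M * N).1.1 i j = M.1.1 i 0 * N.1.1 0 j + M.1.1 i 1 * N.1.1 1 j + M.1.1 i 2 * N.1.1 2 j := by
  show (M.1 * N.1 : SL3).1 i j = _
  rw [Matrix.SpecialLinearGroup.coe_mul, Matrix.mul_apply, Fin.sum_univ_three]

/-- The linear part. -/
def lin : Cfsg.qdOver F →* SL where
  toFun M := ⟨!![M.1.1 0 0, M.1.1 0 1; M.1.1 1 0, M.1.1 1 1], by
    have h := M.1.2
    rw [Matrix.det_fin_three, row0, row1, row2] at h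
    rw [Matrix.det_fin_two_of]
    linear_combination h⟩
  map_one' := by
    apply Subtype.ext
    ext i j
    fin_cases i <;> fin_cases j <;> simp
  map_mul' M N := by
    apply Subtype.ext
    ext i j
    show _ = (!![M.1.1 0 0, M.1.1 0 1; M.1.1 1 0, M.1.1 1 1] * !![N.1.1 0 0, N.1.1 0 1; N.1.1 1 0, N.1.1 1 1]) i j
    fin_cases i <;> fin_cases j <;>
      simp [Matrix.mul_apply, Fin.sum_univ_two, Fin.sum_univ_three, row0, row1]

theorem lin_val (M : Cfsg.qdOver F) : (lin M).1 = !![M.1.1 0 0, M.1.1 0 1; M.1.1 1 0, M.1.1 1 1] := rfl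

/-- The translations. -/
def trans (F : Type*) [Field F] : Subgroup (Cfsg.qdOver F) := (lin (F := F)).ker

theorem mem_trans {M : Cfsg.qdOver F} :
    M ∈ trans F ↔ M.1.1 0 0 = 1 ∧ M.1.1 0 1 = 0 ∧ M.1.1 1 0 = 0 ∧ M.1.1 1 1 = 1 := by
  rw [trans, MonoidHom.mem_ker]
  constructor
  · intro h
    have h' : ∀ i j, (lin M).1 i j = (1 : Matrix (Fin 2) (Fin 2) F) i j := fun i j => by rw [h]; rfl
    exact ⟨h' 0 0, h' 0 1, h' 1 0, h' 1 1⟩
  · rintro ⟨h0, h1, h2, h3⟩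
    apply Subtype.ext
    ext i j
    fin_cases i <;> fin_cases j <;> simp [lin_val, h0, h1, h2, h3]

theorem ext_qd {M N : Cfsg.qdOver F} (h00 : M.1.1 0 0 = N.1.1 0 0) (h01 : M.1.1 0 1 = N.1.1 0 1)
    (h10 : M.1.1 1 0 = N.1.1 1 0) (h11 : M.1.1 1 1 = N.1.1 1 1) (h02 : M.1.1 0 2 = N.1.1 0 2)
    (h12 : M.1.1 1 2 = N.1.1 1 2) : M = N := by
  apply Subtype.ext
  apply Subtype.ext
  ext i j
  fin_cases i <;> fin_cases j <;> simp [h00, h01, h10, h11, h02, h12, row0, row1, row2]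

theorem trans_mul {M : Cfsg.qdOver F} (hM : M ∈ trans F) (N : Cfsg.qdOver F) (hN : N ∈ trans F) :
    (M * N).1.1 0 2 = M.1.1 0 2 + N.1.1 0 2 ∧ (M * N).1.1 1 2 = M.1.1 1 2 + N.1.1 1 2 := by
  obtain ⟨h0, h1, h2, h3⟩ := mem_trans.mp hM
  constructor <;> rw [mul_entry] <;> simp [h0, h1, h2, h3, row2, add_comm]

/-- Coordinates on the translations. -/
def vecHom : Additive (trans F) →+ (Fin 2 → F) where
  toFun M := ![(Additive.toMul M).1.1.1 0 2, (Additive.toMul M).1.1.1 1 2]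
  map_zero' := by ext i; fin_cases i <;> simp
  map_add' M N := by
    obtain ⟨h0, h1⟩ := trans_mul (Additive.toMul M).2 _ (Additive.toMul N).2
    ext i
    fin_cases i
    · simpa using h0
    · simpa using h1

theorem vecHom_bijective : Function.Bijective (vecHom (F := F)) := by
  constructor
  · intro M N h
    obtain ⟨a0, a1, a2, a3⟩ := mem_trans.mp (Additive.toMul M).2
    obtain ⟨b0, b1, b2, b3⟩ := mem_trans.mp (Additive.toMul N).2
    refine Additive.toMul.injective (Subtype.ext (ext_qd (a0.trans b0.symm) (a1.trans b1.symm)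
      (a2.trans b2.symm) (a3.trans b3.symm) ?_ ?_))
    · simpa [vecHom] using congrFun h 0
    · simpa [vecHom] using congrFun h 1
  · intro w
    let M : SL3 := ⟨!![1, 0, w 0; 0, 1, w 1; 0, 0, 1], by simp [Matrix.det_fin_three]⟩
    refine ⟨Additive.ofMul ⟨⟨M, mem_iff.mpr (by simp [M])⟩, mem_trans.mpr (by simp [M])⟩, ?_⟩
    ext i
    fin_cases i <;> simp [vecHom, M]

theorem isPGroup_trans (p : ℕ) [Fact p.Prime] [CharP F p] : IsPGroup p (trans F) := by
  intro M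
  refine ⟨1, ?_⟩
  have h : vecHom (F := F) (Additive.ofMul (M ^ p ^ 1)) = 0 := by
    rw [pow_one, ofMul_pow, map_nsmul]
    ext i
    simp
  exact Additive.ofMul.injective (vecHom_bijective.1 (h.trans (map_zero vecHom).symm))

/-- The standard complement. -/
def sect : SL →* Cfsg.qdOver F where
  toFun B := ⟨⟨!![B.1 0 0, B.1 0 1, 0; B.1 1 0, B.1 1 1, 0; 0, 0, 1], by
      have h := B.2
      rw [Matrix.det_fin_two] at h
      simp [Matrix.det_fin_three]
      linear_combination h⟩, mem_iff.mpr (by simp)⟩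
  map_one' := by apply ext_qd <;> simp
  map_mul' B C := by
    apply ext_qd <;> rw [mul_entry] <;> simp [Matrix.mul_apply, Fin.sum_univ_two]

theorem sect_val (B : SL) : (sect B).1.1 = !![B.1 0 0, B.1 0 1, 0; B.1 1 0, B.1 1 1, 0; 0, 0, 1] := rfl

theorem lin_sect (B : SL) : lin (sect B) = B := by
  apply Subtype.ext
  ext i j
  fin_cases i <;> fin_cases j <;> simp [lin_val, sect_val]

theorem mem_range_sect {M : Cfsg.qdOver F} :
    M ∈ (sect (F := F)).range ↔ M.1.1 0 2 = 0 ∧ M.1.1 1 2 = 0 := by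
  constructor
  · rintro ⟨B, rfl⟩
    simp [sect_val]
  · rintro ⟨h0, h1⟩
    exact ⟨lin M, ext_qd (by simp [lin_val, sect_val]) (by simp [lin_val, sect_val]) (by simp [lin_val, sect_val])
      (by simp [lin_val, sect_val]) (by simp [sect_val, h0]) (by simp [sect_val, h1])⟩

theorem pGroup_normal_SL2 [Fintype F] (p : ℕ) [Fact p.Prime] [CharP F p] (N : Subgroup SL)
    (hNn : N.Normal) (hN : IsPGroup p N) : N = ⊥ := by
  obtain ⟨P, hP⟩ := hN.exists_le_sylow
  obtain ⟨c, hc⟩ := MulAction.exists_smul_eq SL P (Cfsg.Agent.Linear.sylowU2 p)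
  have hNU : N ≤ Cfsg.Agent.Linear.U2 := fun x hx => by
    rw [← Cfsg.Agent.Linear.coe_sylowU2 p, ← hc]
    exact ⟨c⁻¹ * x * c⁻¹⁻¹, hP (hNn.conj_mem x hx c⁻¹), by simp [mul_assoc]⟩
  rw [eq_bot_iff]
  intro x hx
  obtain ⟨h0, h1, h2⟩ := Cfsg.Agent.Linear.mem_U2.mp (hNU hx)
  have hxu : x = Cfsg.Agent.Dickson.uel (x.1 0 1) := Cfsg.Agent.Dickson.ext2 h0 rfl h1 h2
  obtain ⟨-, k1, -⟩ := Cfsg.Agent.Linear.mem_U2.mp (hNU (hNn.conj_mem x hx (Cfsg.Agent.Dickson.lel 1)))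
  rw [hxu] at k1
  simp [Cfsg.Agent.Dickson.mul_apply2] at k1
  refine Subgroup.mem_bot.mpr (Subtype.ext ?_)
  ext i j
  fin_cases i <;> fin_cases j <;> simp [h0, h1, h2, k1]

theorem pCore_eq [Fintype F] (p : ℕ) [Fact p.Prime] [CharP F p] :
    Cfsg.pCore p ↥(Cfsg.qdOver F) = trans F := by
  refine le_antisymm ?_ (le_sSup ⟨MonoidHom.normal_ker _, isPGroup_trans p⟩)
  refine sSup_le fun N ⟨hNn, hNp⟩ => ?_
  have hsur : Function.Surjective (lin (F := F)) := fun B => ⟨sect B, lin_sect B⟩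
  have := pGroup_normal_SL2 p (N.map lin) (hNn.map _ hsur) (hNp.map _)
  rwa [Subgroup.map_eq_bot_iff] at this

end Cfsg.Agent.LocalEven.QdOverFacts
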