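import Cfsg.Agent.Dickson.Stability

/-!
Quadratic elements outside the core: an involution of the group induced on a `p`-group commutes with
one of them, so it lives in a proper subgroup together with it.
-/

set_option autoImplicit false
set_option linter.style.haveILetI false
set_option linter.unusedSectionVars false

namespace Cfsg.Agent.LocalEven

open Subgroup Cfsg Cfsg.Agent
open scoped commutatorElement

universe u

section Ring

variable {R : Type*} [Ring R]

/-- The shape of the elements of a group generated by two quadratic elements. -/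
def QuadForm (a b : R) (h h' : R) : Prop :=
  ∃ f0 f1 f2 f3 : R, (∀ c, c = a ∨ c = b → Commute c f0 ∧ Commute c f1 ∧ Commute c f2 ∧ Commute c f3) ∧
    h = f0 + f1 * a + f2 * b + f3 * (a * b) ∧ h' = f0 - f1 * a - f2 * b + f3 * (b * a)

theorem quadForm_one (a b : R) : QuadForm a b 1 1 :=
  ⟨1, 0, 0, 0, fun c _ => ⟨Commute.one_right c, Commute.zero_right c, Commute.zero_right c,
    Commute.zero_right c⟩, by simp, by simp⟩

theorem quadForm_left {a b h h' : R} (ha : a * a = 0) (hb : b * b = 0) (H : QuadForm a b h h') :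
    QuadForm a b ((1 + a) * h) (h' * (1 - a)) := by
  obtain ⟨f0, f1, f2, f3, hc, rfl, rfl⟩ := H
  obtain ⟨c0, c1, c2, c3⟩ := hc a (Or.inl rfl)
  refine ⟨f0, f1 + f0, f2, f3 + f2, fun c hc' => ?_, ?_, ?_⟩
  · obtain ⟨d0, d1, d2, d3⟩ := hc c hc'
    exact ⟨d0, d1.add_right d0, d2, d3.add_right d2⟩
  · have e1 : a * (f1 * a) = 0 := by rw [← mul_assoc, c1.eq, mul_assoc, ha, mul_zero]
    have e3 : a * (f3 * (a * b)) = 0 := by
      rw [← mul_assoc, c3.eq, mul_assoc, ← mul_assoc a a b, ha, zero_mul, mul_zero]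
    have e2 : a * (f2 * b) = f2 * (a * b) := by rw [← mul_assoc, c2.eq, mul_assoc]
    rw [add_mul, one_mul, mul_add a, mul_add a, mul_add a, e1, e2, e3, c0.eq]
    simp only [add_mul]
    abel
  · have e1 : f1 * a * a = 0 := by rw [mul_assoc, ha, mul_zero]
    have e3 : f3 * (b * a) * a = 0 := by rw [mul_assoc, mul_assoc b a a, ha, mul_zero, mul_zero]
    have e2 : f2 * b * a = f2 * (b * a) := mul_assoc _ _ _
    rw [mul_sub, mul_one, add_mul, sub_mul, sub_mul, e1, e2, e3]
    simp only [add_mul]
    abel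

theorem quadForm_right {a b h h' : R} (ha : a * a = 0) (hb : b * b = 0) (H : QuadForm a b h h') :
    QuadForm a b ((1 + b) * h) (h' * (1 - b)) := by
  obtain ⟨f0, f1, f2, f3, hc, rfl, rfl⟩ := H
  obtain ⟨c0, c1, c2, c3⟩ := hc b (Or.inr rfl)
  set E : R := a * b + b * a with hE
  have hcE : ∀ c, c = a ∨ c = b → Commute c E := by
    rintro c (rfl | rfl)
    · show c * (c * b + b * c) = (c * b + b * c) * c
      rw [mul_add, add_mul, ← mul_assoc c c b, ha, zero_mul, mul_assoc b c c, ha, mul_zero, zero_add,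
        add_zero, mul_assoc]
    · show c * (a * c + c * a) = (a * c + c * a) * c
      rw [mul_add, add_mul, ← mul_assoc c c a, hb, zero_mul, mul_assoc a c c, hb, mul_zero, zero_add,
        add_zero, mul_assoc]
  refine ⟨f0 + f1 * E, f1, f2 + f0 + f3 * E, f3 - f1, fun c hc' => ?_, ?_, ?_⟩
  · obtain ⟨d0, d1, d2, d3⟩ := hc c hc'
    have dE := hcE c hc'
    exact ⟨d0.add_right (d1.mul_right dE), d1, (d2.add_right d0).add_right (d3.mul_right dE),
      d3.sub_right d1⟩
  · have e1 : b * (f1 * a) = f1 * E - f1 * (a * b) := by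
      rw [← mul_assoc, c1.eq, mul_assoc, hE, mul_add, add_sub_cancel_left]
    have e2 : b * (f2 * b) = 0 := by rw [← mul_assoc, c2.eq, mul_assoc, hb, mul_zero]
    have e3 : b * (f3 * (a * b)) = f3 * E * b := by
      rw [← mul_assoc, c3.eq, mul_assoc f3 b, mul_assoc f3 E, hE, add_mul, mul_assoc a b b, hb,
        mul_zero, zero_add, mul_assoc b a b]
    rw [add_mul, one_mul, mul_add b, mul_add b, mul_add b, e1, e2, e3, c0.eq]
    simp only [add_mul, sub_mul]
    abel
  · have e1 : f1 * a * b = f1 * (a * b) := mul_assoc _ _ _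
    have e2 : f2 * b * b = 0 := by rw [mul_assoc, hb, mul_zero]
    have e3 : f3 * (b * a) * b = f3 * E * b := by
      rw [mul_assoc f3 E, mul_assoc f3 (b * a), hE, add_mul, mul_assoc a b b, hb, mul_zero, zero_add]
    have e4 : f1 * (a * b) = f1 * E - f1 * (b * a) := by rw [hE, mul_add, add_sub_cancel_right]
    rw [mul_sub, mul_one, add_mul, sub_mul, sub_mul, e1, e2, e3, e4]
    simp only [add_mul, sub_mul]
    abel

/-- An involution in a group generated by two quadratic elements commutes with the first one. -/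
theorem commute_of_involution {H : Type*} [Group H] [Finite H] (ρ : H →* R) (h2 : IsUnit (2 : R))
    {x y : H} (hgen : closure {x, y} = ⊤) (hx : (ρ x - 1) * (ρ x - 1) = 0)
    (hy : (ρ y - 1) * (ρ y - 1) = 0) {t : H} (ht : t * t = 1) : Commute (ρ t) (ρ x) := by
  set a := ρ x - 1 with ha
  set b := ρ y - 1 with hb
  have hinv : ∀ z : H, (ρ z - 1) * (ρ z - 1) = 0 → ρ z⁻¹ = 1 - (ρ z - 1) := by
    intro z hz
    have e : ρ z * (1 - (ρ z - 1)) = 1 := by
      calc ρ z * (1 - (ρ z - 1)) = 1 - (ρ z - 1) * (ρ z - 1) := by noncomm_ring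
        _ = 1 := by rw [hz, sub_zero]
    calc ρ z⁻¹ = ρ z⁻¹ * (ρ z * (1 - (ρ z - 1))) := by rw [e, mul_one]
      _ = 1 - (ρ z - 1) := by rw [← mul_assoc, ← map_mul, inv_mul_cancel, map_one, one_mul]
  have hform : ∀ h : H, QuadForm a b (ρ h) (ρ h⁻¹) := by
    intro h
    have hh : h ∈ Submonoid.closure ({x, y} : Set H) := by
      rw [← Subgroup.closure_toSubmonoid_of_finite, hgen]
      trivial
    induction hh using Submonoid.closure_induction_left with
    | one => simpa using quadForm_one a b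
    | mul_left z hz w _ ih =>
      rw [map_mul, mul_inv_rev, map_mul]
      rcases hz with rfl | rfl
      · rw [hinv z hx, show ρ z = 1 + a by rw [ha]; abel, show (1 + a) - 1 = a by abel]
        exact quadForm_left hx hy ih
      · rw [hinv z hy, show ρ z = 1 + b by rw [hb]; abel, show (1 + b) - 1 = b by abel]
        exact quadForm_right hx hy ih
  obtain ⟨f0, f1, f2, f3, hc, e, e'⟩ := hform t
  rw [inv_eq_of_mul_eq_one_right ht] at e'
  have h2t : (2 : R) * ρ t = 2 * f0 + f3 * (a * b + b * a) := by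
    rw [two_mul, two_mul]
    nth_rw 1 [e]
    rw [e', mul_add f3]
    abel
  obtain ⟨c0, -, -, c3⟩ := hc a (Or.inl rfl)
  have hcE : Commute a (a * b + b * a) := by
    show a * (a * b + b * a) = (a * b + b * a) * a
    rw [mul_add, add_mul, ← mul_assoc a a b, hx, zero_mul, mul_assoc b a a, hx, mul_zero, zero_add,
      add_zero, mul_assoc]
  have h2a : Commute a ((2 : R) * ρ t) := by
    rw [h2t, two_mul]
    exact (c0.add_right c0).add_right (c3.mul_right hcE)
  have hat : Commute a (ρ t) := by
    obtain ⟨w, hw⟩ := h2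
    have hwc : Commute a (2 : R) := by
      rw [← one_add_one_eq_two]
      exact (Commute.one_right a).add_right (Commute.one_right a)
    have hwi : Commute a ((w⁻¹ : Rˣ) : R) := by
      refine Commute.units_inv_right ?_
      rw [hw]; exact hwc
    have := hwi.mul_right h2a
    rwa [← mul_assoc, ← hw, Units.inv_mul, one_mul] at this
  rw [show ρ x = a + 1 by rw [ha]; abel]
  exact (hat.symm.add_right (Commute.one_right _))

end Ring

variable {p : ℕ} [hp : Fact p.Prime]

/-- A power with odd exponent of an element whose order is at most two. -/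
theorem pow_odd_of_sq {G : Type*} [Group G] {t : G} (ht : t * t = 1) {m : ℕ} (hm : Odd m) : t ^ m = t := by
  obtain ⟨k, rfl⟩ := hm
  rw [pow_succ, pow_mul, pow_two, ht, one_pow, one_mul]

/-- The `2`-part of an element. -/
theorem exists_odd_pow {G : Type*} [Group G] [Finite G] (s : G) :
    ∃ m : ℕ, Odd m ∧ ∃ k : ℕ, (s ^ m) ^ 2 ^ k = 1 := by
  obtain ⟨i, m, hm, hsm⟩ := Nat.exists_eq_pow_mul_and_not_dvd (orderOf_pos s).ne' 2 (by norm_num)
  exact ⟨m, Nat.odd_iff.mpr (Nat.two_dvd_ne_zero.mp hm), i,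
    by rw [← pow_mul, mul_comm, ← hsm, pow_orderOf_eq_one]⟩

/-- The elementary abelian case. -/
theorem involution_witness_ea {G : Type u} [Group G] [Finite G] (hp2 : p ≠ 2) (V : Subgroup G) [V.Normal]
    (hV : IsElementaryAbelian p V) {a : G} (hq : ⁅⁅V, zpowers a⁆, zpowers a⁆ = ⊥)
    (hns : (QuotientGroup.mk a : G ⧸ centralizer (V : Set G)) ∉ pCore p (G ⧸ centralizer (V : Set G))) :
    ∃ M : Subgroup G, M ≠ ⊤ ∧ (∀ R : Subgroup G, R.Normal → IsPGroup p R → R ≤ M) ∧
      (∀ x, Commute x a → x ∈ M) ∧ ∃ t ∈ M, (∃ k : ℕ, t ^ 2 ^ k = 1) ∧ t ∉ centralizer (V : Set G) := by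
  set C := centralizer (V : Set G) with hC
  set π := QuotientGroup.mk' C with hπ
  letI : CommGroup V := { (inferInstance : Group V) with mul_comm := hV.1.is_comm.comm }
  have htopV : (⊤ : Subgroup G) ≤ normalizer (V : Set G) := (Subgroup.normalizer_eq_top V).ge
  let L1 : G →* AddMonoid.End (Additive V) :=
    (Dickson.conjAdd htopV).comp Subgroup.topEquiv.symm.toMonoidHom
  have hL1 : ∀ (g : G) (v : Additive V),
      ((Additive.toMul (L1 g v) : V) : G) = g * (Additive.toMul v : V) * g⁻¹ := fun g v => rfl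
  have hker : C ≤ L1.ker := by
    intro g hg
    refine MonoidHom.mem_ker.mpr (AddMonoidHom.ext fun v => ?_)
    apply Additive.toMul.injective
    apply Subtype.ext
    refine (hL1 g v).trans ?_
    rw [← mem_centralizer_iff.mp hg _ (Additive.toMul v).2, mul_inv_cancel_right]
    rfl
  let L0 : G ⧸ C →* AddMonoid.End (Additive V) := QuotientGroup.lift C L1 hker
  have hL0 : ∀ g : G, L0 (π g) = L1 g := fun g => rfl
  have hfaith : ∀ q : G ⧸ C, L0 q = 1 → q = 1 := by
    intro q hq1
    obtain ⟨g, rfl⟩ := QuotientGroup.mk'_surjective C q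
    refine (QuotientGroup.eq_one_iff g).mpr (mem_centralizer_iff.mpr fun v hv => ?_)
    have e := congrArg (fun L : AddMonoid.End (Additive V) =>
      ((Additive.toMul (L (Additive.ofMul ⟨v, hv⟩)) : V) : G)) hq1
    change g * v * g⁻¹ = v at e
    exact (mul_inv_eq_iff_eq_mul.mp e).symm
  have hquad : ∀ v, L0 (π a) (L0 (π a) v - v) = L0 (π a) v - v := by
    intro v
    rw [hL0]
    apply Additive.toMul.injective
    apply Subtype.ext
    rw [hL1]
    set u : G := ((Additive.toMul (L1 a v - v) : V) : G) with hu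
    have hu' : u = ⁅a, ((Additive.toMul v : V) : G)⁆ := by
      rw [hu, toMul_sub, Subgroup.coe_div, hL1, div_eq_mul_inv, commutatorElement_def]
    have h1 : u ∈ ⁅V, zpowers a⁆ := by
      rw [hu', ← commutatorElement_inv]
      exact inv_mem (commutator_mem_commutator (Additive.toMul v).2 (mem_zpowers _))
    have h2 : ⁅u, a⁆ ∈ ⁅⁅V, zpowers a⁆, zpowers a⁆ := commutator_mem_commutator h1 (mem_zpowers _)
    rw [hq, mem_bot, commutatorElement_eq_one_iff_mul_comm] at h2
    rw [← h2, mul_inv_cancel_right]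
  have hexp : ∀ v : Additive V, p • v = 0 := fun v => by
    apply Additive.toMul.injective
    apply Subtype.ext
    simpa using hV.2 _ (Additive.toMul v).2
  obtain ⟨n, ρ, hρ, hρq⟩ := Dickson.exists_matrix_hom hexp L0 (AlgebraicClosure (ZMod p))
  set ab := π a with hab
  have haq : (ρ ab - 1) * (ρ ab - 1) = 0 := hρq ab hquad
  have hρi : Function.Injective ρ := by
    intro q r e
    have e1 : ρ (r⁻¹ * q) = ρ 1 := by rw [map_mul, e, ← map_mul, inv_mul_cancel]
    have := hρ _ _ e1
    rw [map_one] at this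
    exact (inv_mul_eq_one.mp (hfaith _ this)).symm
  -- a conjugate generating more than a `p`-group
  obtain ⟨g, hg⟩ : ∃ g : G ⧸ C, ¬ IsPGroup p ↥(closure {ab, g * ab * g⁻¹}) := by
    by_contra hcon
    push Not at hcon
    obtain ⟨N, hN, hNp, hle⟩ := Components.baer_suzuki (p := p) (zpowers ab) (fun g => (hcon g).to_le (by
      refine sup_le (zpowers_le.mpr (subset_closure (by simp))) ?_
      rw [MonoidHom.map_zpowers, zpowers_le]
      exact subset_closure (by simp)))
    exact hns (Core.le_pCore hN hNp (hle (mem_zpowers _)))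
  set c := g * ab * g⁻¹ with hcdef
  have hgi : ρ g * ρ g⁻¹ = 1 := by rw [← map_mul, mul_inv_cancel, map_one]
  have hgi' : ρ g⁻¹ * ρ g = 1 := by rw [← map_mul, inv_mul_cancel, map_one]
  have hcq : (ρ c - 1) * (ρ c - 1) = 0 := by
    have e : ρ c - 1 = ρ g * (ρ ab - 1) * ρ g⁻¹ := by
      rw [hcdef, map_mul, map_mul, mul_sub, mul_one, sub_mul, hgi]
    rw [e]
    calc ρ g * (ρ ab - 1) * ρ g⁻¹ * (ρ g * (ρ ab - 1) * ρ g⁻¹)
        = ρ g * (ρ ab - 1) * (ρ g⁻¹ * ρ g) * ((ρ ab - 1) * ρ g⁻¹) := by simp only [mul_assoc]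
      _ = ρ g * ((ρ ab - 1) * (ρ ab - 1)) * ρ g⁻¹ := by rw [hgi', mul_one]; simp only [mul_assoc]
      _ = 0 := by rw [haq, mul_zero, zero_mul]
  set H : Subgroup (G ⧸ C) := closure {ab, c} with hH
  have haH : ab ∈ H := subset_closure (by simp)
  have hcH : c ∈ H := subset_closure (by simp)
  let σ : H →* Matrix (Fin n) (Fin n) (AlgebraicClosure (ZMod p)) := ρ.comp H.subtype
  have hσ : Function.Injective σ := hρi.comp Subtype.val_injective
  have hgen : closure {(⟨ab, haH⟩ : H), ⟨c, hcH⟩} = ⊤ := by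
    refine map_injective H.subtype_injective ?_
    rw [MonoidHom.map_closure, ← MonoidHom.range_eq_map, Subgroup.range_subtype]
    simp only [Set.image_insert_eq, Set.image_singleton, Subgroup.coe_subtype]
    exact hH.symm
  rcases Dickson.pair_cases hp2 σ hσ hgen haq hcq with h | ⟨H0, φ, hφ⟩
  · exact absurd h hg
  -- an involution
  have h2d : 2 ∣ Nat.card H := by
    have hne : (-1 : Dickson.SL2 (ZMod p)) ≠ 1 := by
      intro e
      have e00 := congrArg (fun s : Dickson.SL2 (ZMod p) => s 0 0) e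
      simp at e00
      have h20 : (2 : ZMod p) = 0 := by linear_combination -e00
      exact Dickson.two_ne_zero' (F := ZMod p) hp2 h20
    have ho : orderOf (-1 : Dickson.SL2 (ZMod p)) = 2 := orderOf_eq_prime (by rw [pow_two, neg_mul_neg, one_mul]) hne
    exact (ho ▸ orderOf_dvd_natCard _ : 2 ∣ Nat.card (Dickson.SL2 (ZMod p))).trans
      ((Subgroup.card_dvd_of_surjective φ hφ).trans (Subgroup.card_subgroup_dvd_card H0))
  haveI := Fact.mk Nat.prime_two
  obtain ⟨t, hto⟩ := exists_prime_orderOf_dvd_card' 2 h2d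
  have ht2 : t * t = 1 := by rw [← pow_two, ← hto, pow_orderOf_eq_one]
  have h2u : IsUnit (2 : Matrix (Fin n) (Fin n) (AlgebraicClosure (ZMod p))) := by
    have h20 : (2 : AlgebraicClosure (ZMod p)) ≠ 0 := Dickson.two_ne_zero' hp2
    have := (IsUnit.mk0 (2 : AlgebraicClosure (ZMod p)) h20).map
      (algebraMap (AlgebraicClosure (ZMod p)) (Matrix (Fin n) (Fin n) (AlgebraicClosure (ZMod p))))
    rwa [map_ofNat] at this
  have hcomm : Commute (t : G ⧸ C) ab := by
    refine hρi ?_
    rw [map_mul, map_mul]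
    exact commute_of_involution σ h2u hgen haq hcq ht2
  have htne : (t : G ⧸ C) ≠ 1 := by
    intro e
    rw [show t = 1 from Subtype.ext e, orderOf_one] at hto
    norm_num at hto
  -- the subgroup
  set O := pCore p (G ⧸ C) with hO
  set J : Subgroup (G ⧸ C) := zpowers ab ⊔ O with hJ
  have habp : IsPGroup p (zpowers ab) := by
    have h1 : ab ^ p = 1 := by
      have e : ∀ k : ℕ, (ρ ab) ^ k = 1 + (k : Matrix (Fin n) (Fin n) (AlgebraicClosure (ZMod p))) * (ρ ab - 1) := by
        intro k
        induction k with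
        | zero => simp
        | succ k ih =>
          conv_lhs => rw [pow_succ, ih, show ρ ab = 1 + (ρ ab - 1) by abel, add_sub_cancel_left]
          rw [add_mul, one_mul, mul_assoc, mul_add, mul_one, haq, add_zero, Nat.cast_succ, add_mul, one_mul]
          abel
      refine hρi ?_
      have h0 : (p : Matrix (Fin n) (Fin n) (AlgebraicClosure (ZMod p))) = 0 := by
        rw [← map_natCast (algebraMap (AlgebraicClosure (ZMod p)) (Matrix (Fin n) (Fin n) (AlgebraicClosure (ZMod p)))),
          CharP.cast_eq_zero, map_zero]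
      rw [map_pow, map_one, e, h0, zero_mul, add_zero]
    obtain ⟨j, -, hj⟩ := (Nat.dvd_prime_pow hp.out).mp
      ((orderOf_dvd_of_pow_eq_one h1).trans (pow_one p).symm.dvd)
    exact IsPGroup.of_card (n := j) (by rw [Nat.card_zpowers, hj])
  have hJp : IsPGroup p J := habp.to_sup_of_normal_right (Core.isPGroup_pCore p _)
  have hnorm : ∀ q : G ⧸ C, Commute q ab → q ∈ normalizer (J : Set (G ⧸ C)) := by
    intro q hq
    rw [Subgroup.mem_normalizer_iff_map_conj_eq, hJ, Subgroup.map_sup, MonoidHom.map_zpowers]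
    have eab : (MulAut.conj q).toMonoidHom ab = ab := by simp [hq.eq]
    erw [eab]
    have := Subgroup.mem_normalizer_iff_map_conj_eq.mp
      ((Subgroup.normalizer_eq_top O).ge (mem_top q))
    rw [this]
  refine ⟨(normalizer (J : Set (G ⧸ C))).comap π, fun e => hns ?_, fun R hR hRp => ?_, fun x hx => ?_, ?_⟩
  · have e' : normalizer (J : Set (G ⧸ C)) = ⊤ := by
      rw [← Subgroup.map_comap_eq_self_of_surjective (QuotientGroup.mk'_surjective C)
        (normalizer (J : Set (G ⧸ C))), ← hπ, e, Subgroup.map_top_of_surjective _ (QuotientGroup.mk'_surjective C)]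
    exact Core.le_pCore (Subgroup.normalizer_eq_top_iff.mp e') hJp (mem_sup_left (mem_zpowers ab))
  · haveI := hR
    refine Subgroup.map_le_iff_le_comap.mp (le_trans ?_ Subgroup.le_normalizer)
    exact (Core.le_pCore (Subgroup.Normal.map hR π (QuotientGroup.mk'_surjective C)) (hRp.map π)).trans le_sup_right
  · exact hnorm _ (hx.map π)
  obtain ⟨s, hs⟩ := QuotientGroup.mk'_surjective C (t : G ⧸ C)
  obtain ⟨m, hm, k, hk⟩ := exists_odd_pow s
  have hst : π (s ^ m) = (t : G ⧸ C) := by
    rw [map_pow, hπ, hs]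
    exact pow_odd_of_sq (congrArg Subtype.val ht2) hm
  refine ⟨s ^ m, hnorm _ (hst ▸ hcomm), ⟨k, hk⟩, fun h => htne ?_⟩
  rw [← hst]
  exact (QuotientGroup.eq_one_iff _).mpr h

/-- A quadratic element outside the core of the group induced on a normal `p`-subgroup lies in a proper
subgroup with a `2`-element acting nontrivially. -/
theorem involution_witness (hp2 : p ≠ 2) : ∀ (n : ℕ) (G : Type u) [Group G] [Finite G] (Q : Subgroup G)
    [Q.Normal], Nat.card Q ≤ n → IsPGroup p Q → ∀ a : G, ⁅⁅Q, zpowers a⁆, zpowers a⁆ = ⊥ →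
    (QuotientGroup.mk a : G ⧸ centralizer (Q : Set G)) ∉ pCore p (G ⧸ centralizer (Q : Set G)) →
    ∃ M : Subgroup G, M ≠ ⊤ ∧ (∀ R : Subgroup G, R.Normal → IsPGroup p R → R ≤ M) ∧
      (∀ x, Commute x a → x ∈ M) ∧ ∃ t ∈ M, (∃ k : ℕ, t ^ 2 ^ k = 1) ∧ t ∉ centralizer (Q : Set G) := by
  intro n
  induction n with
  | zero => intro G _ _ Q _ h; exact absurd h (by simp [Nat.card_pos.ne'])
  | succ n ih =>
    intro G _ _ Q _ hn hQ a hq hns
    rcases eq_or_ne Q ⊥ with rfl | hQ1
    · refine absurd ?_ hns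
      rw [(QuotientGroup.eq_one_iff a).mpr (mem_centralizer_iff.mpr fun v hv => by
        rw [mem_bot.mp hv, one_mul, mul_one])]
      exact one_mem _
    haveI : Nontrivial Q := (Subgroup.nontrivial_iff_ne_bot _).mpr hQ1
    set D : Subgroup G := (frattini Q).map Q.subtype with hD
    haveI hDn : D.Normal := Core.normal_map_subtype_of_characteristic _
    have hDQ : D ≤ Q := map_subtype_le _
    have hDlt : Nat.card D < Nat.card Q := by
      rw [hD, card_map_of_injective Q.subtype_injective]
      obtain ⟨M, hM⟩ := (eq_top_or_exists_le_coatom (⊥ : Subgroup Q)).resolve_left bot_ne_top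
      have hne : frattini Q ≠ ⊤ := fun e => hM.1.1 (top_le_iff.mp (e ▸ frattini_le_coatom hM.1))
      exact lt_of_le_of_ne (Subgroup.card_le_card_group _) fun e => hne (eq_top_of_card_eq _ e)
    set π := QuotientGroup.mk' D with hπ
    set V := Q.map π with hV
    haveI hVn : V.Normal := Subgroup.Normal.map inferInstance π (QuotientGroup.mk'_surjective D)
    have hVea : IsElementaryAbelian p V := by
      constructor
      · rw [← Subgroup.le_centralizer_iff_isMulCommutative]
        rintro _ ⟨u, hu, rfl⟩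
        rw [mem_centralizer_iff]
        rintro _ ⟨v, hv, rfl⟩
        rw [← map_mul, ← map_mul, hπ, QuotientGroup.mk'_apply, QuotientGroup.mk'_apply, QuotientGroup.eq]
        exact ⟨_, FGS3.commutator_le_frattini hQ (Subgroup.commutator_mem_commutator
            (mem_top (⟨u⁻¹, inv_mem hu⟩ : Q)) (mem_top (⟨v⁻¹, inv_mem hv⟩ : Q))),
          by simp [commutatorElement_def, mul_assoc]⟩
      · rintro _ ⟨u, hu, rfl⟩
        rw [← map_pow, hπ, QuotientGroup.mk'_apply, QuotientGroup.eq_one_iff]
        exact ⟨⟨u, hu⟩ ^ p, FGS3.pow_mem_frattini hQ _, by simp⟩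
    by_cases hD2 : (QuotientGroup.mk a : G ⧸ centralizer (D : Set G)) ∈ pCore p (G ⧸ centralizer (D : Set G))
    swap
    · obtain ⟨M, hM, hR, hc, t, htM, hk, ht⟩ := ih G D (by omega) (hQ.to_le hDQ) a
        (le_bot_iff.mp ((commutator_mono (commutator_mono hDQ le_rfl) le_rfl).trans hq.le)) hD2
      exact ⟨M, hM, hR, hc, t, htM, hk, fun h => ht (centralizer_le hDQ h)⟩
    by_cases hV2 : (QuotientGroup.mk (π a) : (G ⧸ D) ⧸ centralizer (V : Set (G ⧸ D))) ∈
        pCore p ((G ⧸ D) ⧸ centralizer (V : Set (G ⧸ D)))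
    swap
    · have hqV : ⁅⁅V, zpowers (π a)⁆, zpowers (π a)⁆ = ⊥ := by
        rw [hV, ← MonoidHom.map_zpowers, ← map_commutator, ← map_commutator, hq, Subgroup.map_bot]
      obtain ⟨M, hM, hR, hc, t, htM, ⟨k, hk⟩, ht⟩ := involution_witness_ea hp2 V hVea hqV hV2
      obtain ⟨s, hs⟩ := QuotientGroup.mk'_surjective D t
      obtain ⟨m, hm, k', hk'⟩ := exists_odd_pow s
      refine ⟨M.comap π, fun e => hM ?_, fun R hRn hRp => ?_, fun x hx => hc _ (hx.map π), s ^ m, ?_, ⟨k', hk'⟩, ?_⟩
      · rw [← Subgroup.map_comap_eq_self_of_surjective (QuotientGroup.mk'_surjective D) M, ← hπ, e,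
          Subgroup.map_top_of_surjective _ (QuotientGroup.mk'_surjective D)]
      · exact Subgroup.map_le_iff_le_comap.mp
          (hR _ (Subgroup.Normal.map hRn π (QuotientGroup.mk'_surjective D)) (hRp.map π))
      · rw [mem_comap, map_pow, hπ, hs]
        exact pow_mem htM m
      · intro h
        apply ht
        have h1 : t ^ m ∈ centralizer (V : Set (G ⧸ D)) := by
          rw [← hs, ← map_pow, mem_centralizer_iff]
          rintro _ ⟨v, hv, rfl⟩
          rw [← map_mul, ← map_mul, mem_centralizer_iff.mp h v hv]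
        have hcop : (orderOf t).Coprime m :=
          ((Nat.coprime_two_left.mpr hm).pow_left k).coprime_dvd_left (orderOf_dvd_of_pow_eq_one hk)
        obtain ⟨l, hl⟩ := exists_pow_eq_self_of_coprime hcop.symm
        rw [← hl]
        exact pow_mem h1 l
    -- both stable
    refine absurd ?_ hns
    set LD := (pCore p (G ⧸ centralizer (D : Set G))).comap (QuotientGroup.mk' (centralizer (D : Set G))) with hLD
    set ψ := (QuotientGroup.mk' (centralizer (V : Set (G ⧸ D)))).comp π with hψ
    set LV := (pCore p ((G ⧸ D) ⧸ centralizer (V : Set (G ⧸ D)))).comap ψ with hLV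
    haveI : LD.Normal := Subgroup.Normal.comap inferInstance _
    haveI : LV.Normal := Subgroup.Normal.comap inferInstance _
    set μ := QuotientGroup.mk' (centralizer (Q : Set G)) with hμ
    have hp' : IsPGroup p ((LD ⊓ LV).map μ) := by
      rintro ⟨_, z, hz, rfl⟩
      obtain ⟨i, hi⟩ := Core.isPGroup_pCore p _ ⟨_, hz.1⟩
      obtain ⟨j, hj⟩ := Core.isPGroup_pCore p _ ⟨_, hz.2⟩
      have hi' : z ^ p ^ i ∈ centralizer (D : Set G) := by
        have := congrArg Subtype.val hi
        simp only [SubmonoidClass.coe_pow, OneMemClass.coe_one, ← map_pow] at this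
        exact (QuotientGroup.eq_one_iff _).mp this
      have hj' : π (z ^ p ^ j) ∈ centralizer (V : Set (G ⧸ D)) := by
        have := congrArg Subtype.val hj
        simp only [SubmonoidClass.coe_pow, OneMemClass.coe_one, ← map_pow] at this
        exact (QuotientGroup.eq_one_iff _).mp this
      obtain ⟨k, hk⟩ := IsPGroup.iff_card.mp hQ
      set w := z ^ p ^ (i + j) with hw
      have hwD : w ∈ centralizer (D : Set G) := by
        rw [hw, pow_add, pow_mul]; exact pow_mem hi' _
      have hwV : π w ∈ centralizer (V : Set (G ⧸ D)) := by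
        rw [hw, pow_add, mul_comm, pow_mul, map_pow]; exact pow_mem hj' _
      refine ⟨i + j + k, Subtype.ext ?_⟩
      show μ z ^ p ^ (i + j + k) = 1
      rw [pow_add, pow_mul, ← map_pow, ← hw, ← map_pow]
      refine (QuotientGroup.eq_one_iff _).mpr (mem_centralizer_iff.mpr fun v hv => ?_)
      set u := ⁅w, v⁆ with hu
      have huD : u ∈ D := by
        have e : π u = 1 := by
          rw [hu, map_commutatorElement, commutatorElement_eq_one_iff_mul_comm]
          exact (mem_centralizer_iff.mp hwV _ ⟨v, hv, rfl⟩).symm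
        exact (QuotientGroup.eq_one_iff u).mp e
      have h3 := PLocal.conj_pow_eq (a := w) (v := v) (w := u) (by rw [hu, commutatorElement_def]; group)
        (mem_centralizer_iff.mp hwD u huD).symm (p ^ k)
      have h4 : u ^ p ^ k = 1 := by
        rw [← hk]
        exact congrArg Subtype.val (pow_card_eq_one' (x := (⟨u, hDQ huD⟩ : Q)))
      rw [h4, one_mul] at h3
      exact (mul_inv_eq_iff_eq_mul.mp h3).symm
    exact Core.le_pCore (Subgroup.Normal.map inferInstance μ (QuotientGroup.mk'_surjective _)) hp'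
      ⟨a, ⟨hD2, hV2⟩, rfl⟩

end Cfsg.Agent.LocalEven
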